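import Cfsg.Agent.Mult.Fo4
import Cfsg.Agent.Mult.Co2
import Cfsg.Agent.TwM.Root

/-! Twisted groups given by an involutory graph-field automorphism with orthogonal orbits: the `p'`-part of the
multiplier (`Og.hasCyc_one`), the torus (`Og.H_inf`), perfectness (`Og.perfect`), lifting automorphisms to the
universal group (`exists_lift_aut`). -/

set_option autoImplicit false

namespace Cfsg.Agent.Pres.OmM

open Cfsg.Lie Cfsg.Agent.Chev Cfsg.Agent.Chev.Sys Cfsg.Agent.Mult Cfsg.Agent.ChAut Cfsg.Agent.TwM Cfsg.Agent.Schur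

universe u

variable {D : ChevalleyDatum} [Good D] {K : Type u} [Field K] {G : Type u} [Group G] {X : Sys D K G} {S : Sym D}

theorem commIs_of {r s : Rt D} (h1 : s ≠ r) (h2 : s ≠ ng r) (h : ∀ k, ¬ Comb r s k) : CommIs D 0 r s [] :=
  ⟨r.2, s.2, fun e => h1 (Fin.ext e), fun e => h2 (Fin.ext e), by rw [commTerms_of_N (N_eq_zero_of h)]⟩

theorem not_comb_mixed {i j : Sm D} (hij : i ≠ j) (k : Rt D) : ¬ Comb (ng (sm i)) (sm j) k := by
  rintro ⟨a, b, ha, hb, e⟩
  refine not_pos_of_exists (r := k) (i := i) ?_ (pos_of_exists (i := j) ?_)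
  · rw [e, rtv_ng, rtv_sm, rtv_sm]; simp [hij]; omega
  · rw [e, rtv_ng, rtv_sm, rtv_sm]; simp [hij.symm]; omega

theorem orthR_of {i j : Sm D} (h1 : car i (sm j) = 0) (h2 : car j (sm i) = 0) : OrthR i j := by
  have hij : i ≠ j := by rintro rfl; simp [car_sm_self] at h1
  have a1 : sm j ≠ sm i := fun e => hij (sm_injective e).symm
  have a2 : ∀ a b : Sm D, sm a ≠ ng (sm b) := fun a b e => not_pos_ng_sm b (e ▸ pos_sm a)
  refine ⟨h1, h2, ⟨commIs_of a1 (a2 _ _) (not_comb_sm h2), commIs_of (r := ng (sm i)) (a2 _ _) (by rwa [ng_ng])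
    (not_comb_mixed hij)⟩, commIs_of (s := ng (sm j)) (a2 _ _).symm (fun e => a1 (by simpa using congrArg ng e))
      (fun k hk => not_comb_mixed hij.symm k hk.symm),
    commIs_of (r := ng (sm i)) (s := ng (sm j)) (fun e => a1 (by simpa using congrArg ng e))
      (by rw [ng_ng]; exact (a2 _ _).symm) fun k hk => not_comb_sm h2 (ng k) (by simpa using Comb.ng hk)⟩

/-- An involutory graph-field automorphism with orthogonal orbits. -/
structure Og (α : X.Aut S) (τ : K →+* K) : Prop where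
  inv : Invol α
  a : ∀ r t, α.a r t = τ t
  orth : ∀ i, S.π i ≠ i → car i (sm (S.π i)) = 0

/-- The group generated by the unipotent fixed points. -/
def Gm (α : X.Aut S) : Subgroup G := (X.UP ⊓ α.fix) ⊔ (X.UN ⊓ α.fix)

theorem Gm_le (α : X.Aut S) : Gm α ≤ α.fix := sup_le inf_le_right inf_le_right

namespace Og

variable {α : X.Aut S} {τ : K →+* K} (h : Og α τ)
include h

theorem ππ (i : Sm D) : S.π (S.π i) = i := sm_injective (by rw [← S.ρ_sm, ← S.ρ_sm, h.inv.ρρ])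

theorem ττ (t : K) : τ (τ t) = t := by
  have := h.inv.aa (sm ⟨0, lt_of_lt_of_le two_pos Good.two_le_rank⟩) t
  rwa [h.a, h.a] at this

theorem mem_orb {i j : Sm D} : j ∈ S.orb i ↔ j = i ∨ j = S.π i := by
  rw [S.orb_eq3 i (.inr (h.ππ i)), h.ππ]; simp; tauto

theorem orth' {i : Sm D} (e : S.π i ≠ i) : car (S.π i) (sm i) = 0 := by
  have := h.orth (S.π i) (by rw [h.ππ]; exact e.symm)
  rwa [h.ππ] at this

theorem pos_orb {i : Sm D} {r : Rt D} : Pos r ∧ InJ (S.orb i) r ↔ r = sm i ∨ r = sm (S.π i) := by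
  refine ⟨fun ⟨h1, h2⟩ => ?_, ?_⟩
  · obtain ⟨j, rfl⟩ := eq_sm_of_orth (fun j hj k hk e => by
      rcases h.mem_orb.1 hj with rfl | rfl <;> rcases h.mem_orb.1 hk with rfl | rfl
      exacts [absurd rfl e, h.orth _ e, h.orth' e.symm, absurd rfl e]) h1 h2
    exact (h.mem_orb.1 (inJ_sm.1 h2)).imp (congrArg _) (congrArg _)
  · rintro (rfl | rfl)
    exacts [⟨pos_sm _, inJ_sm.2 (h.mem_orb.2 (.inl rfl))⟩, ⟨pos_sm _, inJ_sm.2 (h.mem_orb.2 (.inr rfl))⟩]

theorem neg_orb {i : Sm D} {r : Rt D} : ¬ Pos r ∧ InJ (S.orb i) r ↔ r = ng (sm i) ∨ r = ng (sm (S.π i)) := by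
  rw [← pos_ng_iff, ← inJ_ng, h.pos_orb]
  exact or_congr ⟨fun e => by rw [← e, ng_ng], fun e => by rw [e, ng_ng]⟩ ⟨fun e => by rw [← e, ng_ng],
    fun e => by rw [e, ng_ng]⟩

theorem σ_x (r : Rt D) (t : K) : α.σ (X.x r t) = X.x (S.ρ r) (τ t) := by rw [α.σ_x, h.a]

theorem x_mem {r : Rt D} {t : K} (h1 : S.ρ r = r) (h2 : τ t = t) : X.x r t ∈ Gm α := by
  have : X.x r t ∈ α.fix := Aut.mem_fix.2 (by rw [h.σ_x, h1, h2])
  by_cases e : Pos r
  exacts [Subgroup.mem_sup_left ⟨X.x_mem_U e t, this⟩, Subgroup.mem_sup_right ⟨X.x_mem_U e t, this⟩]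

theorem xx_mem {r : Rt D} (h1 : ∀ t u, Commute (X.x r t) (X.x (S.ρ r) u)) (t : K) :
    X.x r t * X.x (S.ρ r) (τ t) ∈ Gm α := by
  have : X.x r t * X.x (S.ρ r) (τ t) ∈ α.fix := Aut.mem_fix.2 (by
    rw [map_mul, h.σ_x, h.σ_x, h.inv.ρρ, h.ττ, (h1 _ _).eq])
  by_cases e : Pos r
  exacts [Subgroup.mem_sup_left ⟨mul_mem (X.x_mem_U e t) (X.x_mem_U (S.pos_ρ.2 e) _), this⟩,
    Subgroup.mem_sup_right ⟨mul_mem (X.x_mem_U e t) (X.x_mem_U (S := {r | ¬ Pos r}) (fun e' => e (S.pos_ρ.1 e')) _), this⟩]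

theorem comm_pos {i : Sm D} (e : S.π i ≠ i) (t u : K) : Commute (X.x (sm i) t) (X.x (S.ρ (sm i)) u) :=
  ((orthR_of (h.orth i e) (h.orth' e)).commute _ (X.x_mem_U (by simp [S.ρ_sm]) u) _ (X.x_mem_U (by simp) t)).symm

theorem comm_neg {i : Sm D} (e : S.π i ≠ i) (t u : K) : Commute (X.x (ng (sm i)) t) (X.x (S.ρ (ng (sm i))) u) :=
  ((orthR_of (h.orth i e) (h.orth' e)).commute _ (X.x_mem_U (by simp [S.ρ_sm]) u) _ (X.x_mem_U (by simp) t)).symm

variable [Conn D]

theorem gen (c : Full X) : α.Gen (Gm α) :=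
  ⟨h.inv.fold c.c (Gm_le α) (c.top ▸ le_top) le_sup_left le_sup_right, le_sup_left, Gm_le α,
    sup_le_sup (le_inf inf_le_left le_sup_left) (le_inf inf_le_left le_sup_right)⟩

theorem ln1 (c : Full X) {F : Type*} [Field F] {f : F →+* K} (hf : ∀ x, x ∈ f.range ↔ τ x = x) {i : Sm D}
    (e : S.π i = i) : LN X S (Gm α) i [(i, f)] := by
  have e1 : S.ρ (sm i) = sm i := by rw [S.ρ_sm, e]
  have hf' : ∀ t, τ (f t) = f t := fun t => (hf _).1 ⟨t, rfl⟩
  have a1 : ∀ r : Rt D, Pos r ∧ InJ (S.orb i) r ↔ r = sm i := fun r => by rw [h.pos_orb, e, or_self]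
  refine ⟨⟨⟨by simp, by simpa using (sm i).2, fun k => ?_⟩, ⟨by simp, by simpa using (ng (sm i)).2, fun k => ?_⟩⟩,
    ?_, by simp [OrthN], fun t => ?_, fun t => ?_, ?_, by simp⟩
  · simp [a1, Fin.ext_iff]
  · simp [h.neg_orb, e, Fin.ext_iff]
  · rw [Sym.w1]
    refine (eq_w0 ?_ fun j hj => ?_).symm
    · simpa [wd_cons, wd] using sr_mem_WJ (S.mem_orb i)
    · obtain rfl : j = i := by simpa [e] using h.mem_orb.1 hj
      simpa [wd_cons, wd] using not_pos_ng_sm j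
  · simpa [eL_eq] using h.x_mem e1 (hf' t)
  · simpa [fL_eq] using h.x_mem (r := ng (sm i)) (by rw [S.ρ_ng, e1]) (hf' t)
  · refine card_eq_of_param (fun t => X.x (sm i) (f t)) (fun t u e => f.injective (sub_eq_zero.1 (c.c.x_eq_one
      (r := sm i) (by simp only at e; rw [sub_eq_add_neg, X.add, e, ← X.add]; simp)))) fun u => ⟨fun hu => ?_, ?_⟩
    · obtain ⟨t, rfl⟩ := mem_U_singleton.1 (X.U_mono (T := {sm i}) (fun r hr => (a1 r).1 hr) hu.1)
      have := Aut.mem_fix.1 (Gm_le α hu.2)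
      rw [h.σ_x, e1] at this
      obtain ⟨s, rfl⟩ := (hf t).2 (sub_eq_zero.1 (c.c.x_eq_one (r := sm i) (by
        rw [sub_eq_add_neg, X.add, this, ← X.add]; simp)))
      exact ⟨s, rfl⟩
    · rintro ⟨t, rfl⟩
      exact ⟨X.x_mem_U ((a1 _).2 rfl) _, h.x_mem e1 (hf' t)⟩

theorem ln2 (c : Full X) {i : Sm D} (e : S.π i ≠ i) : LN X S (Gm α) i [(i, RingHom.id K), (S.π i, τ)] := by
  have e1 : sm (S.π i) ≠ sm i := fun e' => e (sm_injective e')
  have E : Enum {r | Pos r ∧ InJ (S.orb i) r} [D.simple i, D.simple (S.π i)] :=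
    ⟨by simpa using fun e' => e1 (Fin.ext e'.symm), by simpa using ⟨(sm i).2, (sm (S.π i)).2⟩,
      fun k => by simp [h.pos_orb, Fin.ext_iff]⟩
  have a1 : ∀ t u, gword X.x [(D.simple i, t), (D.simple (S.π i), u)] = X.x (sm i) t * X.x (sm (S.π i)) u :=
    fun t u => by simp [← sm_val, gword_cons]
  refine ⟨⟨E, ⟨?_, by simpa using ⟨(ng (sm i)).2, (ng (sm (S.π i))).2⟩, fun k => ?_⟩⟩,
    ?_, by simpa [OrthN] using orthR_of (h.orth i e) (h.orth' e), fun t => ?_, fun t => ?_, ?_, by simp⟩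
  · simpa using fun e' => e1 (by simpa using congrArg ng (Fin.ext (a := ng (sm i)) (b := ng (sm (S.π i))) e').symm)
  · simp [h.neg_orb, Fin.ext_iff]
  · rw [Sym.w1]
    refine (eq_w0 ?_ fun j hj => ?_).symm
    · simpa [wd_cons, wd] using mul_mem (sr_mem_WJ (S.mem_orb i)) (sr_mem_WJ (h.mem_orb.2 (.inr rfl)))
    · have b1 : sr (S.π i) • sm i = sm i := refl_of_A_eq_zero (by rw [A_sm, h.orth' e])
      have b2 : sr i • sm (S.π i) = sm (S.π i) := refl_of_A_eq_zero (by rw [A_sm, h.orth i e])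
      rcases h.mem_orb.1 hj with rfl | rfl
      · simpa [wd_cons, wd, mul_smul, b1] using not_pos_ng_sm j
      · simpa [wd_cons, wd, mul_smul, b2] using not_pos_ng_sm (S.π i)
  · simpa [eL_eq, S.ρ_sm] using h.xx_mem (h.comm_pos e) t
  · simpa [fL_eq, S.ρ_sm] using h.xx_mem (h.comm_neg e) t
  · refine card_eq_of_param (fun t => X.x (sm i) t * X.x (sm (S.π i)) (τ t)) (fun t u e => ?_)
      fun u => ⟨fun hu => ?_, ?_⟩
    · simp only [← a1] at e
      exact congrArg Prod.snd (List.cons.inj ((c.c.gword_inj (nilp_posJ _) E subset_rfl rfl rfl).1 e)).1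
    · obtain ⟨t, rfl⟩ := exists_gword (nilp_posJ _) E hu.1
      have := Aut.mem_fix.1 (Gm_le α hu.2)
      simp only [List.map_cons, List.map_nil, a1] at this ⊢
      rw [map_mul, h.σ_x, h.σ_x, S.ρ_sm, S.ρ_sm, h.ππ, ← S.ρ_sm, ← (h.comm_pos e _ _).eq, S.ρ_sm, ← a1, ← a1,
        c.c.gword_inj (nilp_posJ _) E subset_rfl rfl rfl] at this
      simp only [List.cons.injEq, Prod.mk.injEq, true_and, and_true] at this
      exact ⟨_, by rw [this.2]⟩
    · rintro ⟨t, rfl⟩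
      exact ⟨mul_mem (X.x_mem_U (h.pos_orb.2 (.inl rfl)) _) (X.x_mem_U (h.pos_orb.2 (.inr rfl)) _),
        S.ρ_sm i ▸ h.xx_mem (h.comm_pos e) t⟩

theorem σ_tor (m : X.Mult) (a : Sm D → Kˣ) :
    α.σ (m.tor a) = m.tor fun j => Units.map (τ : K →* K) (a (S.π j)) := by
  induction a using Pi.mulSingle_induction with
  | one => simp [← Pi.one_def]
  | mul a b h1 h2 => rw [map_mul, map_mul, h1, h2, ← map_mul]; congr 1; funext j; simp
  | mulSingle i t =>
    rw [m.tor_single, Sys.h, map_mul, α.σ_n, α.σ_n, h.a, h.a, map_neg, map_one, ← Sys.h, S.ρ_sm,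
      show τ t = (Units.map (τ : K →* K) t : Kˣ) from rfl, ← m.tor_single]
    congr 1
    funext j
    by_cases e : j = S.π i
    · simp [e, h.ππ]
    · rw [Pi.mulSingle_eq_of_ne e, Pi.mulSingle_eq_of_ne (fun e' => e (by rw [← e', h.ππ])), map_one]

omit h [Conn D] in
variable (S τ) in
/-- The fixed points on the torus. -/
def fixT : Subgroup (Sm D → Kˣ) where
  carrier := {c | ∀ i, (c (S.π i) : K) = τ (c i)}
  one_mem' i := by simp
  mul_mem' h h' i := by simp [h i, h' i]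
  inv_mem' h i := by simp [h i]

theorem tor_mem (m : X.Mult) {a : Sm D → Kˣ} (ha : a ∈ fixT S τ) : m.tor a ∈ Gm α := by
  classical
  let b : Sm D → Sm D → Kˣ := fun i => if S.π i = i then Pi.mulSingle i (a i) else
    if i < S.π i then Pi.mulSingle i (a i) * Pi.mulSingle (S.π i) (a (S.π i)) else 1
  have e : a = ∏ i, b i := by
    funext j
    rw [Finset.prod_apply]
    by_cases e1 : S.π j = j
    · rw [Finset.prod_eq_single j (fun i _ hi => ?_) (by simp)]
      · simp [b, e1]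
      · have : S.π i ≠ j := fun e => hi (by rw [← h.ππ i, e, e1])
        simp only [b]; split_ifs <;> simp [hi.symm, this.symm]
    by_cases e2 : j < S.π j
    · rw [Finset.prod_eq_single j (fun i _ hi => ?_) (by simp)]
      · simp [b, e1, e2, Ne.symm e1]
      · simp only [b]; split_ifs with a1 a2
        · simp [hi.symm]
        · have : S.π i ≠ j := by rintro rfl; rw [h.ππ] at e2; exact absurd a2 e2.not_gt
          simp [hi.symm, this.symm]
        · rfl
    · have e3 : S.π j < j := lt_of_le_of_ne (not_lt.1 e2) e1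
      rw [Finset.prod_eq_single (S.π j) (fun i _ hi => ?_) (by simp)]
      · simp [b, h.ππ, e3, Ne.symm e1]
      · simp only [b]; split_ifs with a1 a2
        · have : i ≠ j := by rintro rfl; exact e1 a1
          simp [this.symm]
        · have a3 : i ≠ j := by rintro rfl; exact e2 a2
          have a4 : S.π i ≠ j := by rintro rfl; exact hi (h.ππ i).symm
          simp [a3.symm, a4.symm]
        · rfl
  rw [e]
  refine Subgroup.prod_mem ((Gm α).comap m.tor) fun i _ => ?_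
  simp only [b, Subgroup.mem_comap]
  split_ifs with a1 a2
  · have e1 : S.ρ (sm i) = sm i := by rw [S.ρ_sm, a1]
    rw [m.tor_single]
    exact X.h_mem1 τ (fun t ht => by rw [gword_cons, gword_nil, mul_one]; exact h.x_mem e1 ht)
      (fun t ht => by
        rw [← ng_val, gword_cons, gword_nil, mul_one]; exact h.x_mem (r := ng (sm i)) (by rw [S.ρ_ng, e1]) ht)
      (by rw [← ha i, a1])
  · have o := orthR_of (h.orth i a1) (h.orth' a1)
    rw [map_mul, m.tor_single, m.tor_single, ha i]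
    exact X.h_mem2 (by rintro _ (rfl | rfl); exacts [o.2.2.1, o.2.2.2]) τ
      (fun t => by rw [gword_cons, gword_cons, gword_nil, mul_one, ← S.ρ_sm]; exact h.xx_mem (h.comm_pos a1) t)
      (fun t => by
        rw [← ng_val, ← ng_val, gword_cons, gword_cons, gword_nil, mul_one, ← S.ρ_sm, ← S.ρ_ng]
        exact h.xx_mem (h.comm_neg a1) t) _
  · simp

theorem H_inf {m : X.Mult} (hi : Function.Injective m.tor) : X.H ⊓ Gm α = (fixT S τ).map m.tor := by
  refine le_antisymm (fun y hy => ?_) (by rintro _ ⟨a, ha, rfl⟩; exact ⟨m.tor_mem_H a, h.tor_mem m ha⟩)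
  obtain ⟨a, rfl⟩ := m.exists_tor hy.1
  refine ⟨a, fun i => ?_, rfl⟩
  have := congrFun (hi ((h.σ_tor m a).symm.trans (Aut.mem_fix.mp (Gm_le α hy.2)))) (S.π i)
  rw [← this, h.ππ]; rfl

omit [Conn D] in
theorem reps : ∃ R : List (Sm D), S.Reps R ∧ R.Pairwise fun j k => k ∉ S.orb j := by
  refine ⟨(List.finRange D.rank).filter fun i => i ≤ S.π i, fun i => ?_, ?_⟩
  · by_cases e : i ≤ S.π i
    · exact ⟨i, by simpa using e, .inl rfl⟩
    · exact ⟨S.π i, by simpa [h.ππ] using (not_le.1 e).le, .inr (.inl rfl)⟩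
  · refine List.Pairwise.imp_of_mem (R := (· ≠ ·)) (fun {j k} hj hk e e' => ?_) ((List.nodup_finRange _).filter _)
    simp only [List.mem_filter, decide_eq_true_eq] at hj hk
    rcases h.mem_orb.1 e' with rfl | rfl
    · exact e rfl
    · rw [h.ππ] at hk; exact e (le_antisymm hj.2 hk.2)

theorem hasCyc_one [Finite K] [Finite G] (c : Full X) {m : X.Mult} (hi : Function.Injective m.tor) (p : ℕ)
    [Fact p.Prime] [CharP K p] {F : Type*} [Field F] [Finite F] {f : F →+* K} (hf : ∀ x, x ∈ f.range ↔ τ x = x)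
    (hp : ∀ (E : Type u) [Group E] [Finite E] (σ : E →* G), St (Gm α) σ → ¬ p ∣ Nat.card σ.ker) :
    HasCyclicSchurMultiplier (Gm α) 1 := TwM.hasCyc_one fun E _ _ σ s => by
  have g := h.gen c
  obtain ⟨V, hV⟩ := exists_PL c.c p s.mem s.surj s.cent (hp E σ s)
  obtain ⟨R, h1, h2⟩ := h.reps
  refine eq_bot_iff.2 fun z hz => eq_one_of_torOk hi h1 h2 (fun j _ => ?_) (hV.mem_T g.fold c.c g.gen hz (s.comm hz)) hz
  by_cases e : S.π j = j
  · exact hV.torOk_LN g.fold c.c (h.ln1 c hf e) hi (by simpa using S.mem_orb j)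
  · exact hV.torOk_LN g.fold c.c (h.ln2 c e) hi (by simpa using ⟨S.mem_orb j, h.mem_orb.2 (.inr rfl)⟩)

end Og

variable [Conn D]

theorem mem_of_pow_mem {H : Subgroup G} {y : G} {a b : ℕ} (hab : a.Coprime b) (h1 : y ^ a ∈ H) (h2 : y ^ b = 1) :
    y ∈ H := by
  have e : (1 : ℤ) = a * Nat.gcdA a b + b * Nat.gcdB a b := by rw [← Nat.gcd_eq_gcd_ab, hab]; rfl
  rw [← zpow_one y, e, zpow_add, zpow_mul, zpow_mul, zpow_natCast, zpow_natCast, h2, one_zpow, mul_one]
  exact zpow_mem h1 _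

theorem central_pow [Finite K] (c : Full X) {z : G} (hz : z ∈ Subgroup.center G) : z ^ (Nat.card K - 1) = 1 := by
  rw [(mult_of_finite X).center_eq c.c c.top] at hz
  obtain ⟨a, -, rfl⟩ := hz
  rw [← map_pow, show a ^ (Nat.card K - 1) = 1 from funext fun i => by
    rw [← Nat.card_units]; exact pow_card_eq_one', map_one]

omit [Good D] [Conn D] in
theorem coprime_char [Finite K] (p : ℕ) [Fact p.Prime] [CharP K p] (k : ℕ) : (Nat.card K - 1).Coprime (p ^ k) := by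
  refine Nat.Coprime.pow_right k (Nat.coprime_comm.1 ((Nat.Prime.coprime_iff_not_dvd Fact.out).2 fun e => ?_))
  have := Fintype.ofFinite K
  have h1 : p ∣ Nat.card K := Nat.card_eq_fintype_card (α := K) ▸ (CharP.cast_eq_zero_iff K p _).1
    (FiniteField.cast_card_eq_zero K)
  have h2 := (Nat.dvd_sub h1 e)
  rw [Nat.sub_sub_self Nat.card_pos, Nat.dvd_one] at h2
  exact (Fact.out : p.Prime).one_lt.ne' h2

theorem exists_lift_aut [Finite K] (c : Full X) (hA : AllLift.{u, u} D K) (hp : commutator (D.SteinbergCover K) = ⊤)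
    (α : X.Aut S) : ∃ β : (scS D K).Aut S, β.a = α.a ∧ ∀ y, X.lift (β.σ y) = α.σ (X.lift y) := by
  obtain ⟨p, hp'⟩ := CharP.exists K
  have := Fact.mk (CharP.char_is_prime K p)
  have E := isCentralExt_lift c.c c.top
  obtain ⟨σ, hσ⟩ := AllLift.existsUnique'.{u, u, u} hA hp E (α.σ.comp X.lift)
  have h1 : ∀ y, X.lift (σ y) = α.σ (X.lift y) := fun y => DFunLike.congr_fun hσ y
  have h2 : ∀ r t, X.lift ((scS D K).x r t) = X.x r t := X.lift_scGen
  have h3 : ∀ r t, (scS D K).x r t ^ p = 1 := fun r t => by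
    have : ∀ n : ℕ, (scS D K).x r t ^ n = (scS D K).x r (n * t) := fun n => by
      induction n with
      | zero => simp
      | succ n ih => rw [pow_succ, ih, ← Sys.add]; congr 1; push_cast; ring
    rw [this, CharP.cast_eq_zero, zero_mul, x_zero]
  refine ⟨⟨σ, α.a, fun r t => ?_, α.a_ne, α.a_ng⟩, rfl, h1⟩
  have h4 : ((scS D K).x (S.ρ r) (α.a r t))⁻¹ * σ ((scS D K).x r t) ∈ Subgroup.center _ := E.central (by
    rw [MonoidHom.mem_ker, map_mul, map_inv, h1, h2, h2, α.σ_x, inv_mul_cancel])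
  set z := ((scS D K).x (S.ρ r) (α.a r t))⁻¹ * σ ((scS D K).x r t) with hz
  have h5 : σ ((scS D K).x r t) = (scS D K).x (S.ρ r) (α.a r t) * z := by rw [hz, mul_inv_cancel_left]
  have h6 : z ^ p ^ 1 = 1 := by
    have := congrArg (· ^ p) h5
    simp only [← map_pow, h3, map_one] at this
    rw [Commute.mul_pow (Subgroup.mem_center_iff.1 h4 _), h3, one_mul] at this
    rw [pow_one, ← this]
  have h7 := mem_of_pow_mem (H := ⊥) (coprime_char (K := K) p 1)
    (central_pow ⟨scCover D K, scS_U_univ⟩ h4) h6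
  rw [h5, Subgroup.mem_bot.1 h7, mul_one]

theorem gen_of_quasi {Γ : Subgroup G} (h : X.Fold S Γ) (c : X.Cover) (hp : commutator Γ = ⊤)
    [IsSimpleGroup (Γ ⧸ Subgroup.center Γ)] : Γ ≤ X.UP ⊓ Γ ⊔ X.UN ⊓ Γ := by
  have hn := Subgroup.normal_subgroupOf_of_le_normalizer (Fold.le_normalizer h c)
  set N := (X.UP ⊓ Γ ⊔ X.UN ⊓ Γ).subgroupOf Γ
  rcases (hn.map _ (QuotientGroup.mk'_surjective (Subgroup.center Γ))).eq_bot_or_eq_top with e | e
  · obtain ⟨v, a1, a2, a3⟩ := Fold.exists_Un1 h ⟨0, lt_of_lt_of_le two_pos Good.two_le_rank⟩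
    have a4 : v ∈ X.UN := X.U_mono (fun _ h => h.1) a1
    have a5 : (⟨v, a2⟩ : Γ) ∈ Subgroup.center Γ := (QuotientGroup.eq_one_iff _).1 (e.le
      ⟨⟨v, a2⟩, Subgroup.mem_sup_right (S := X.UP ⊓ Γ) ⟨a4, a2⟩, rfl⟩)
    obtain ⟨n, -, b1, b2⟩ := h.exists_N0
    have b3 := (w0_UP b1 v).2 a4
    rw [show n * v = v * n from congrArg Subtype.val (Subgroup.mem_center_iff.1 a5 ⟨n, b2⟩),
      mul_inv_cancel_right] at b3
    exact absurd (c.eq_one_of_B_UN (X.UP_le_B b3) a4) a3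
  · refine Subgroup.subgroupOf_eq_top.1 (eq_top_iff.2 ?_)
    rw [← hp, commutator_eq_of_forall_mul_central N fun x => by
      obtain ⟨y, hy, e⟩ := e.ge (Subgroup.mem_top (QuotientGroup.mk' _ x))
      exact ⟨y, hy, y⁻¹ * x, QuotientGroup.eq.1 e, by simp⟩]
    exact Subgroup.commutator_le.2 fun a ha b hb => mul_mem (mul_mem (mul_mem ha hb) (inv_mem ha)) (inv_mem hb)

section Lift

variable [Finite K] (c : Full X) {α : X.Aut S} {β : (scS D K).Aut S} (hβ : ∀ y, X.lift (β.σ y) = α.σ (X.lift y))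
include c hβ

omit [Finite K] in
theorem U_le_map {φ : Fn D} {T : Set (Rt D)} (hT : Nilp φ T) (hρ : ∀ r ∈ T, S.ρ r ∈ T) :
    X.U T ⊓ α.fix ≤ ((scS D K).U T ⊓ β.fix).map X.lift := fun u hu => by
  have h1 := hu.1
  rw [← scS_map_lift X, ← map_U] at h1
  obtain ⟨v, a1, rfl⟩ := h1
  refine ⟨v, ⟨a1, Aut.mem_fix.2 (mul_inv_eq_one.1 ((scCover D K).eq_one_of_π hT
    (mul_mem (β.σ_mem_U hρ a1) (inv_mem a1)) (((scCover D K).mem_center_iff scS_U_univ).1
      ((isCentralExt_lift c.c c.top).central ?_))))⟩, rfl⟩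
  rw [MonoidHom.mem_ker, map_mul, map_inv, hβ, Aut.mem_fix.1 hu.2, mul_inv_cancel]

omit [Finite K] in
theorem map_Gm : (Gm β).map X.lift = Gm α := by
  have key : ∀ T, ((scS D K).U T ⊓ β.fix).map X.lift ≤ X.U T ⊓ α.fix := by
    rintro T _ ⟨v, hv, rfl⟩
    refine ⟨?_, Aut.mem_fix.2 (by rw [← hβ, Aut.mem_fix.1 hv.2])⟩
    have := Subgroup.mem_map_of_mem X.lift hv.1
    rwa [map_U, scS_map_lift] at this
  rw [Gm, Subgroup.map_sup]
  exact congrArg₂ _ ((key _).antisymm (U_le_map c hβ nilp_Pos fun r => S.pos_ρ.2))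
    ((key _).antisymm (U_le_map c hβ nilp_Neg fun r hr e => hr (S.pos_ρ.1 e)))

theorem perfect_Gm (hp : commutator (Gm α) = ⊤) : commutator (Gm β) = ⊤ := by
  obtain ⟨p, hp'⟩ := CharP.exists K
  have := Fact.mk (CharP.char_is_prime K p)
  have e1 : (⁅Gm β, Gm β⁆).map X.lift = Gm α := by
    rw [Subgroup.map_commutator, map_Gm c hβ, ← Subgroup.map_subtype_commutator, hp, ← MonoidHom.range_eq_map,
      Subgroup.range_subtype]
  have key : ∀ y ∈ Gm β, y ∈ (scS D K).UP ∨ y ∈ (scS D K).UN → y ∈ ⁅Gm β, Gm β⁆ := fun y h1 h2 => by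
    obtain ⟨k, hk⟩ := exists_pow_of_mem (scCover D K) p h2
    obtain ⟨z, a1, a2⟩ := e1.ge (map_Gm c hβ ▸ Subgroup.mem_map_of_mem X.lift h1)
    have a3 : z⁻¹ * y ∈ Subgroup.center _ := (isCentralExt_lift c.c c.top).central (by
      rw [MonoidHom.mem_ker, map_mul, map_inv, a2, inv_mul_cancel])
    refine mem_of_pow_mem (coprime_char (K := K) p k) ?_ hk
    rw [← mul_inv_cancel_left z y, Commute.mul_pow (Subgroup.mem_center_iff.1 a3 _),
      central_pow ⟨scCover D K, scS_U_univ⟩ a3, mul_one]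
    exact pow_mem a1 _
  refine eq_top_iff.2 fun y _ => ?_
  have : (y : D.SteinbergCover K) ∈ ⁅Gm β, Gm β⁆ := (sup_le (fun u hu => key u (Subgroup.mem_sup_left hu) (.inl hu.1))
    fun u hu => key u (Subgroup.mem_sup_right hu) (.inr hu.1) : Gm β ≤ _) y.2
  rw [← Subgroup.map_subtype_commutator] at this
  obtain ⟨z, h1, h2⟩ := this
  exact (show z = y from Subtype.ext h2) ▸ h1

end Lift

theorem hasCyc_map' [Finite G] (c : Full X) {Γ : Subgroup G} (h : HasCyclicSchurMultiplier Γ 1)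
    (hp : commutator Γ = ⊤) {m : X.Mult} (hi : Function.Injective m.tor) {T : Subgroup (Sm D → Kˣ)}
    (hT : X.H ⊓ Γ = T.map m.tor) (hc : IsCyclic ↥(zker D K ⊓ T)) {n : ℕ} (hn : Nat.card ↥(zker D K ⊓ T) = n) :
    HasCyclicSchurMultiplier (Γ.map c.c.π) n := by
  have c' := fun y => c.c.mem_center_iff c.top (y := y)
  have e : (c.c.π.subgroupMap Γ).ker.map Γ.subtype = (zker D K ⊓ T).map m.tor := by
    refine le_antisymm ?_ ?_
    · rintro _ ⟨y, hy, rfl⟩
      have h1 : c.c.π y = 1 := congrArg Subtype.val hy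
      obtain ⟨a, a1, a2⟩ := hT.le ⟨c.c.mem_H_of_mem_center c.top ((c' _).2 h1), y.2⟩
      exact ⟨a, ⟨(m.π_tor_eq_one _).1 (a2 ▸ h1), a1⟩, a2⟩
    · rintro _ ⟨a, ha, rfl⟩
      exact ⟨⟨_, (hT.ge ⟨a, ha.2, rfl⟩).2⟩, Subtype.ext ((m.π_tor_eq_one _).2 ha.1), rfl⟩
  have e' : (c.c.π.subgroupMap Γ).ker ≃* ↥(zker D K ⊓ T) :=
    (Subgroup.equivMapOfInjective _ _ Γ.subtype_injective).trans ((MulEquiv.subgroupCongr e).trans
      (Subgroup.equivMapOfInjective _ _ hi).symm)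
  exact hasSchur_of_cover h hp ⟨c.c.π.subgroupMap_surjective Γ, fun y hy => Subgroup.mem_center_iff.2
    fun z => Subtype.ext (Subgroup.mem_center_iff.1 ((c' _).2 (congrArg Subtype.val hy)) z)⟩
    (e'.trans (hn ▸ (zmodCyclicMulEquiv hc).symm))

end Cfsg.Agent.Pres.OmM
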