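import Cfsg.Agent.Mult.Tg2
import Cfsg.Agent.Pres.OmM4

/-! Signed permutations of the roots of types `B` and `D` (`Ac`, `Cy`), closure of sets of root subgroups (`Rs`,
`all_σ`), Steinberg's generators for arbitrary Weyl group elements (`tg_big'`, `tg_two'`). -/

set_option autoImplicit false

namespace Cfsg.Agent.Pres.OmG

open Cfsg.Lie Cfsg.Agent.Chev Cfsg.Agent.Chev.Sys Cfsg.Agent.Mult Cfsg.Agent.ChAut Matrix

attribute [-simp] zsmul_eq_mul

variable {D : ChevalleyDatum} [Good D] {F : Type*} [Field F] {G : Type*} [Group G] {X : Sys D F G} {K : Subgroup G}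

variable (X K) in
/-- The root subgroup lies in `K`. -/
def Rs (r : Rt D) : Prop := ∀ t, X.x r t ∈ K

theorem Rs.smul {n : G} {w : WG D} (hn : X.Mon n w) (h1 : n ∈ K) {r : Rt D} (h : Rs X K r) : Rs X K (w • r) := fun t => by
  obtain ⟨c, -, hc⟩ := hn
  rw [← (c r).mul_inv_cancel_left t, ← hc]
  exact mul_mem (mul_mem h1 (h _)) (inv_mem h1)

theorem Rs.refl [Conn D] {r s : Rt D} (h1 : Rs X K r) (h2 : Rs X K (ng r)) (h : Rs X K s) : Rs X K (refl r s) :=
  h.smul (X.mon_n r one_ne_zero) (mul_mem (mul_mem (h1 _) (h2 _)) (h1 _))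

theorem comm_long {r s : Rt D} (h : Long r) (h0 : 0 ≤ A r s) (t u : F) : Commute (X.x r t) (X.x s u) :=
  (X.commute_of_N (ne_ng_of_A (by omega)) (N_eq_zero_of (h.not_comb h0)) t u).symm

theorem comm_sl (hD : SL D) {r s : Rt D} (h : A r s = -1) :
    ∃ ε : F, ε * ε = 1 ∧ ∀ t u, X.x s u * X.x r t = X.x r t * X.x s u * X.x (refl r s) (ε * t * u) := by
  have e1 := ne_ng_of_A (show A r s ≠ -2 by omega)
  refine ⟨-(N r s : F), ?_, fun t u => ?_⟩
  · rw [(sl_N_eq hD h).1]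
    rcases eta_eq r s with e | e <;> simp [e]
  · rw [X.comm r _ (fun e => by rw [e, A_self] at h; omega) e1, commW, hD.commTerms e1,
      if_neg ((hD.N_ne_zero_iff e1).2 h), (sl_N_eq hD h).2, List.map_singleton, gword_cons]
    simp

theorem tg_big' [Conn D] [Finite F] (m : X.Mult) (hF : ∃ x : F, x ≠ 0 ∧ x ≠ 1) {n : G} {w : WG D} (n2 : X.Mon n w)
    {k r s : Rt D} (a1 : ∀ a ∈ [r, w • r, s, w • w • s], A k a = 1 ∨ A k a = -1) (a2 : A k (w • s) = 0)
    (a3 : ∀ t u, Commute (X.x (w • r) t) (X.x (w • s) u)) :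
    ∃ a b, ∀ K : Subgroup G, a ∈ K → b ∈ K → Rs X K r ∧ Rs X K s ∧ n ∈ K := by
  obtain ⟨g, hg⟩ := IsCyclic.exists_generator (α := Fˣ)
  have b1 : ∀ a ∈ [r, w • r, s, w • w • s], Gn ((g ^ A k a : Fˣ) : F) := fun a ha => by
    have : g ≠ 1 := by
      rintro rfl
      obtain ⟨x, h0, h1⟩ := hF
      exact h1 (congrArg Units.val (by simpa using hg (Units.mk0 x h0) : Units.mk0 x h0 = 1))
    have := a1 a ha
    exact gn_zpow hg (by rcases this with e | e <;> simp [e]) (by rcases this with e | e <;> simpa [e])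
  have c := fun (a : Rt D) u => X.h_conj k a g.ne_zero u
  simp only [← Units.val_zpow_eq_zpow_val] at c
  have h1 := X.h_mem_H k g.ne_zero
  simp only [List.forall_mem_cons] at b1
  refine ⟨X.x (w • r) 1 * X.x (w • s) 1 * n, X.h k g, fun K k1 k2 => ?_⟩
  have c0 : ∀ t, Commute (X.h k g) (X.x (w • s) t) := fun t =>
    mul_inv_eq_iff_eq_mul.1 ((c _ t).trans (by simp [a2]))
  obtain ⟨d1, d2, d3⟩ := tg_half (X.add _) (X.add _) a3 (c _) c0 (conj_chi n2 (c _)) (conj_chi n2 (c _))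
    (commute_H m h1 (n2.conj_mem_H h1)) b1.2.1 b1.1.1 k2 k1
  have d4 := tg_ext' (X.add _) (by simpa only [inv_smul_smul] using conj_chi n2.inv (c (w • w • s)))
    b1.2.2.2.1 (by
      convert mul_mem (mul_mem (inv_mem d3) k2) d3 using 1
      rw [_root_.mul_inv_rev, mul_assoc n⁻¹ _⁻¹, ← (c0 1).inv_right.eq]; group)
    (commute_H m (n2.inv.conj_mem_H h1) (n2.conj_mem_H h1)) (sub_ne_zero.2 b1.2.2.1.1.symm) d2
  have d5 := (K.mul_mem_cancel_left (d4 1)).1 d3
  exact ⟨by simpa using Rs.smul n2.inv (inv_mem d5) d1, by simpa using Rs.smul n2.inv (inv_mem d5) d4, d5⟩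

theorem tg_two' [Conn D] (hD : SL D) (hF : ∀ x : F, x = 0 ∨ x = 1) {r s : Rt D} (c1 : Commute (X.x r 1) (X.x s 1))
    (c2 : Commute (X.x r 1) (X.x (ng s) 1)) (k2 : X.x r 1 * (X.x s 1 * X.x (ng s) 1) ∈ K) :
    Rs X K r ∧ ∀ k, Rs X K k → Commute (X.x (ng s) 1) (X.x k 1) → A s k = -1 → Rs X K (refl s k) := by
  have hp : ((2 : ℕ) : F) = 0 := by simpa [one_add_one_eq_two] using (hF (1 + 1)).resolve_right (by simp)
  have := ringChar.of_eq (CharP.ringChar_of_prime_eq_zero Nat.prime_two hp)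
  have f : ∀ {a}, X.x a 1 ∈ K → Rs X K a := fun h t => by
    rcases hF t with rfl | rfl
    exacts [by rw [x_zero]; exact one_mem _, h]
  have i : ∀ a : Rt D, X.x a 1 * X.x a 1 = 1 := fun a => by rw [← X.add, CharTwo.add_self_eq_zero, x_zero]
  have b1 : (X.x s 1 * X.x (ng s) 1) ^ 3 = 1 := by
    have := X.n_conj_one s s
    rw [refl_self, Sys.n, inv_one, CharTwo.neg_eq] at this
    simp only [_root_.mul_inv_rev, inv_eq_of_mul_eq_one_right (i _), mul_assoc, ← mul_assoc (X.x s 1) (X.x s 1), i,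
      one_mul] at this
    rw [← i (ng s)]
    nth_rewrite 2 [← this]
    simp only [pow_succ, pow_zero, one_mul, mul_assoc]
  have b2 : X.x r 1 ∈ K := by
    have := pow_mem k2 3
    rwa [(c1.mul_right c2).mul_pow, b1, mul_one, pow_three, i, mul_one] at this
  have b3 := (K.mul_mem_cancel_left b2).1 k2
  refine ⟨f b2, fun k hk c e => f ?_⟩
  obtain ⟨ε, e1, e2⟩ := comm_sl (X := X) hD e
  have b5 := mul_mem (mul_mem b3 (hk 1)) (inv_mem b3)
  rw [mul_assoc _ _ (X.x k 1), c.eq, _root_.mul_inv_rev, ← mul_assoc, ← mul_assoc, mul_inv_cancel_right,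
    inv_eq_of_mul_eq_one_right (i s), mul_assoc, e2, ← mul_assoc, ← mul_assoc, i, one_mul,
    K.mul_mem_cancel_left (hk 1)] at b5
  rwa [(hF ε).resolve_left (by rintro rfl; simp at e1), one_mul, one_mul] at b5

variable {l : ℕ} {m n : ℤ} (C : Co D l m n)

attribute [local simp] A_refl_left A_refl_right A_ng_left A_ng_right Co.Aσσ Co.Aστ Co.Aτσ Co.Aττ ix0_swap sg0_swap
  ε0_dot' sg0_mul_self

theorem refl_eq {r s s' : Rt D} (h1 : C.ρ s' = C.ρ s - (C.κ r ⬝ᵥ C.ρ s) • C.ρ r)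
    (h2 : C.κ s' = C.κ s - (C.κ s ⬝ᵥ C.ρ r) • C.κ r) : refl r s = s' := by
  have a1 := C.A_eq s s
  have a2 := C.A_eq r r
  rw [A_self] at a1 a2
  refine eq_of_A ?_ ?_
  · rw [A_refl_right, C.A_eq, C.A_eq, C.A_eq, h2]
    simp only [sub_dotProduct, smul_dotProduct, smul_eq_mul, ← a1, ← a2]
    ring
  · rw [A_refl_left, C.A_eq, C.A_eq, C.A_eq, h1]
    simp only [dotProduct_sub, dotProduct_smul, smul_eq_mul, ← a1, ← a2]
    ring

/-- `w` acts as the signed permutation `π`. -/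
structure Ac (w : WG D) (π : Fin l ⊕ Fin l → Fin l ⊕ Fin l) : Prop where
  ne : ∀ a b, ix0 a ≠ ix0 b → ix0 (π a) ≠ ix0 (π b)
  σ : ∀ a b, ix0 a ≠ ix0 b → w • C.σ a b = C.σ (π a) (π b)
  τ : m ≠ 0 → ∀ a, w • C.τ a = C.τ (π a)

variable {C}

theorem Ac.mul {w w' : WG D} {π π' : Fin l ⊕ Fin l → Fin l ⊕ Fin l} (h : Ac C w π) (h' : Ac C w' π') :
    Ac C (w * w') (π ∘ π') :=
  ⟨fun a b e => h.ne _ _ (h'.ne a b e), fun a b e => by rw [mul_smul, h'.σ a b e, h.σ _ _ (h'.ne a b e)]; rfl,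
    fun e a => by rw [mul_smul, h'.τ e, h.τ e]; rfl⟩

theorem ac_refl {r : Rt D} {π : Fin l ⊕ Fin l → Fin l ⊕ Fin l} (h1 : ∀ c, ε0 (π c) = ε0 c - (C.κ r ⬝ᵥ ε0 c) • C.ρ r)
    (h2 : ∀ c, ε0 (π c) = ε0 c - (ε0 c ⬝ᵥ C.ρ r) • C.κ r) : Ac C (rW r) π := by
  have a2 := C.A_eq r r
  rw [A_self] at a2
  have h3 : ∀ a b, ix0 a ≠ ix0 b → ix0 (π a) ≠ ix0 (π b) := fun a b e e' => by
    have : ε0 (π a) ⬝ᵥ ε0 (π b) = ε0 a ⬝ᵥ ε0 b := by
      rw [h2 a, h1 b]
      simp only [sub_dotProduct, smul_dotProduct, dotProduct_sub, dotProduct_smul, smul_eq_mul, ← a2]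
      ring
    rw [ε0_dot', ε0_dot', if_pos e', if_neg e] at this
    rcases sg0_eq (π a) with e | e <;> rcases sg0_eq (π b) with e' | e' <;> simp [e, e'] at this
  refine ⟨h3, fun a b e => refl_eq C ?_ ?_, fun e a => refl_eq C ?_ ?_⟩
  · rw [C.ρσ e, C.ρσ (h3 a b e), h1, h1, dotProduct_add]; module
  · rw [C.κσ e, C.κσ (h3 a b e), h2, h2, add_dotProduct]; module
  · rw [C.ρτ e, C.ρτ e, h1, dotProduct_smul, smul_eq_mul]; module
  · rw [C.κτ e, C.κτ e, h2, smul_dotProduct, smul_eq_mul]; module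

theorem ε0_swap (a : Fin l ⊕ Fin l) : ε0 a.swap = -ε0 a := by rcases a with a | a <;> simp [ε0]

/-- The signed transposition. -/
def tp (a b c : Fin l ⊕ Fin l) : Fin l ⊕ Fin l :=
  if c = a then b else if c = b then a else if c = a.swap then b.swap else if c = b.swap then a.swap else c

theorem ac_tp {a b : Fin l ⊕ Fin l} (h : ix0 a ≠ ix0 b) : Ac C (rW (C.σ a b.swap)) (tp a b) := by
  have h' := h.symm
  have e : ix0 a ≠ ix0 b.swap := by simpa
  have key : ∀ c, ε0 (tp a b c) = ε0 c - ((ε0 a + ε0 b.swap) ⬝ᵥ ε0 c) • (ε0 a + ε0 b.swap) := fun c => by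
    rw [add_dotProduct, tp]
    split_ifs with h1 h2 h3 h4
    · subst h1; simp [*, ε0_swap]
    · subst h2; simp [*, ε0_swap]
    · subst h3; simp [*, ε0_swap]
    · subst h4; simp [*, ε0_swap]
    · have a1 : ix0 a ≠ ix0 c := fun e => (eq_or_swap e.symm).elim h1 h3
      have a2 : ix0 b ≠ ix0 c := fun e => (eq_or_swap e.symm).elim h2 h4
      simp [*]
  exact ac_refl (fun c => by rw [C.ρσ e, C.κσ e, key]) fun c => by rw [C.ρσ e, C.κσ e, key, dotProduct_comm]

theorem exists_perm (p : Equiv.Perm (Fin l)) : ∃ w, Ac C w (Sum.map p p) := by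
  induction p using Equiv.Perm.swap_induction_on with
  | one => exact ⟨1, by simp, by simp, by simp⟩
  | swap_mul p i j e ih =>
    obtain ⟨w, h⟩ := ih
    refine ⟨_, (?_ : tp (.inl i) (.inl j) ∘ Sum.map p p = _) ▸ (ac_tp (a := .inl i) (b := .inl j) e).mul h⟩
    funext c
    rcases c with c | c <;> simp [tp, Equiv.swap_apply_def] <;> split_ifs <;> rfl

/-- A negative cycle on the first `k` coordinates, changing the signs of the others. -/
structure Cy (k : ℕ) (π : Fin l ⊕ Fin l → Fin l ⊕ Fin l) : Prop where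
  sw : ∀ a, π a.swap = (π a).swap
  lt : ∀ i j : Fin l, j.val = i.val + 1 → j.val < k → π (.inl i) = .inl j
  eq : ∀ i j : Fin l, i.val + 1 = k → j.val = 0 → π (.inl i) = .inr j
  gt : ∀ i : Fin l, k ≤ i.val → π (.inl i) = .inr i

theorem cy_of {k : ℕ} (h0 : 0 < k) (hk : k ≤ l) {π : Fin l ⊕ Fin l → Fin l ⊕ Fin l} (h1 : ∀ a, π a.swap = (π a).swap)
    (h2 : ∀ i : Fin l, π (.inl i) = if i.val = 0 ∨ k ≤ i.val then .inr i else .inl i) {w : WG D} (h : Ac C w π) :
    ∃ w π, Ac C w π ∧ Cy k π := by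
  have : NeZero l := ⟨by omega⟩
  let z : Fin l := ⟨k - 1, by omega⟩
  obtain ⟨w', h'⟩ := exists_perm (C := C) z.cycleRange
  refine ⟨_, _, h.mul h', fun a => ?_, fun i j e e' => ?_, fun i j e e' => ?_, fun i e => ?_⟩
  · rw [Function.comp_apply, Function.comp_apply, ← h1]; rcases a with a | a <;> rfl
  · have : z.cycleRange i = j := Fin.ext (by rw [Fin.coe_cycleRange_of_lt (by simp [z, Fin.lt_def]; omega), e])
    rw [Function.comp_apply, Sum.map_inl, this, h2, if_neg (by omega)]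
  · have : z.cycleRange i = j := by
      rw [Fin.cycleRange_of_eq (Fin.ext (by simp [z]; omega))]; exact Fin.ext (by simp [e'])
    rw [Function.comp_apply, Sum.map_inl, this, h2, if_pos (.inl e')]
  · rw [Function.comp_apply, Sum.map_inl, Fin.cycleRange_of_gt (by simp [z, Fin.lt_def]; omega), h2, if_pos (.inr e)]

theorem exists_cyB (C : Co D l 1 2) (h0 : 0 < l) : ∃ w π, Ac C w π ∧ Cy l π := by
  let z : Fin l ⊕ Fin l := .inl ⟨0, h0⟩
  have key : ∀ c, ε0 (if ix0 c = ix0 z then c.swap else c) = ε0 c - (2 * ε0 z ⬝ᵥ ε0 c) • ε0 z := fun c => by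
    split_ifs with h
    · rcases eq_or_swap h with rfl | rfl <;> simp [ε0_swap] <;> module
    · simp [Ne.symm h]
  refine cy_of h0 le_rfl (π := fun c => if ix0 c = ix0 z then c.swap else c) (fun a => by
    simp only [ix0_swap]; split_ifs <;> rfl) (fun i => ?_) (ac_refl (r := C.τ z) (fun c => ?_) fun c => ?_)
  · simp [z, ix0, Fin.ext_iff, not_le.2 i.2]
  · rw [C.ρτ one_ne_zero, C.κτ one_ne_zero, key, smul_dotProduct, one_smul, smul_eq_mul]
  · rw [C.ρτ one_ne_zero, C.κτ one_ne_zero, key, one_smul, smul_smul, dotProduct_comm, mul_comm]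

theorem exists_cyD (C : Co D l m n) (h0 : 2 ≤ l) : ∃ w π, Ac C w π ∧ Cy (l - 1) π := by
  let a : Fin l := ⟨0, by omega⟩
  let z : Fin l := ⟨l - 1, by omega⟩
  have e : a ≠ z := by simp [a, z, Fin.ext_iff]; omega
  have e' := e.symm
  refine cy_of (by omega) (by omega) (fun c => ?_) (fun i => ?_)
    ((ac_tp (a := .inl a) (b := .inl z) e).mul (ac_tp (a := .inl a) (b := .inr z) e))
  · rcases c with c | c <;> by_cases h1 : c = a <;> by_cases h2 : c = z <;> simp [tp, *]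
  · by_cases h1 : i = a
    · simp [tp, h1, e, e', a]
    by_cases h2 : i = z
    · simp [tp, h2, e, e', z]
    have : ¬ (i.val = 0 ∨ l - 1 ≤ i.val) := by simp only [a, z, Fin.ext_iff] at h1 h2; omega
    rw [if_neg this]
    simp [tp, h1, h2]

namespace Cy

variable {k : ℕ} {π : Fin l ⊕ Fin l → Fin l ⊕ Fin l} (h : Cy k π) (hk : k ≤ l) (z : Fin l) (hz : z.val = 0)
include h hk hz

theorem it_lt (j : Fin l) (hj : j.val < k) : π^[j] (.inl z) = .inl j := by
  obtain ⟨j, hj'⟩ := j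
  induction j with
  | zero => exact congrArg Sum.inl (Fin.ext hz)
  | succ j ih => rw [Function.iterate_succ_apply', ih (by omega) (by simp at hj ⊢; omega)]; exact h.lt _ _ rfl hj

theorem it_add (h0 : 0 < k) (j : ℕ) : π^[j + k] (.inl z) = (π^[j] (.inl z)).swap := by
  induction j with
  | zero =>
    obtain ⟨k, rfl⟩ : ∃ k', k = k' + 1 := ⟨k - 1, by omega⟩
    rw [zero_add, Function.iterate_succ_apply', h.it_lt hk z hz ⟨k, hk⟩ (by simp)]
    exact h.eq _ _ rfl hz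
  | succ j ih => rw [Nat.add_right_comm, Function.iterate_succ_apply', ih, h.sw, Function.iterate_succ_apply']

theorem orb {Q : Fin l ⊕ Fin l → Prop} (h1 : ∀ a, Q a → Q (π a)) (h2 : Q (.inl z)) (a : Fin l ⊕ Fin l)
    (ha : (ix0 a).val < k) : Q a := by
  have key : ∀ j, Q (π^[j] (.inl z)) := fun j => by
    induction j with
    | zero => exact h2
    | succ j ih => rw [Function.iterate_succ_apply']; exact h1 _ ih
  rcases a with a | a
  · exact h.it_lt hk z hz a ha ▸ key a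
  · have := key (a + k)
    rwa [h.it_add hk z hz (by simp [ix0] at ha; omega), h.it_lt hk z hz a ha] at this

end Cy

variable (X K C) in
/-- The root subgroups of `± (ε a - ε b)` lie in `K`. -/
def Tr (a b : Fin l ⊕ Fin l) : Prop := Rs X K (C.σ a b.swap) ∧ Rs X K (C.σ a.swap b)

theorem Tr.swap {a b : Fin l ⊕ Fin l} (h : Tr X K C a b) : Tr X K C a.swap b.swap := by
  simpa only [Tr, Sum.swap_swap] using h.symm

theorem Tr.symm {a b : Fin l ⊕ Fin l} (e : ix0 a ≠ ix0 b) (h : Tr X K C a b) : Tr X K C b a :=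
  ⟨C.σ_comm (a := a.swap) (b := b) (by simpa) ▸ h.2, C.σ_comm (a := a) (b := b.swap) (by simpa) ▸ h.1⟩

variable [Conn D]

theorem Tr.mv {a b c : Fin l ⊕ Fin l} (h : Tr X K C a b) (e1 : ix0 a ≠ ix0 b) (e2 : ix0 a ≠ ix0 c) (e3 : ix0 b ≠ ix0 c)
    (h' : Rs X K (C.σ b c)) : Rs X K (C.σ a c) := by
  have := e1.symm; have := e2.symm; have := e3.symm
  have := h.1.refl (by rw [C.ng_σ (by simpa), Sum.swap_swap]; exact h.2) h'
  rwa [show refl (C.σ a b.swap) (C.σ b c) = C.σ a c from (eq_of_A (by simp [*]) (by simp [*])).symm] at this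

theorem Tr.trans {a b c : Fin l ⊕ Fin l} (h : Tr X K C a b) (h' : Tr X K C b c) (e1 : ix0 a ≠ ix0 b)
    (e2 : ix0 a ≠ ix0 c) (e3 : ix0 b ≠ ix0 c) : Tr X K C a c :=
  ⟨h.mv e1 (by simpa) (by simpa) h'.1, h.swap.mv (by simpa) (by simpa) (by simpa) h'.2⟩

theorem all_tr {k : ℕ} {π : Fin l ⊕ Fin l → Fin l ⊕ Fin l} (h : Cy k π) (hk : k ≤ l) {w : WG D} (hw : Ac C w π)
    {y : G} (n2 : X.Mon y w) (n1 : y ∈ K) {z u : Fin l} (hz : z.val = 0) (hu : u.val = 1) (h2 : 1 < k)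
    (h0 : Rs X K (C.σ (.inl z) (.inr u))) (a b : Fin l ⊕ Fin l) (ha : (ix0 a).val < k) (hb : (ix0 b).val < k)
    (e : ix0 a ≠ ix0 b) : Tr X K C a b := by
  have k1 : ∀ j, ix0 (π^[j] (.inl z)) ≠ ix0 (π^[j + 1] (.inl z)).swap ∧
      Rs X K (C.σ (π^[j] (.inl z)) (π^[j + 1] (.inl z)).swap) := fun j => by
    induction j with
    | zero =>
      rw [zero_add, ← hu, h.it_lt hk z hz u (by omega)]
      exact ⟨by simp [ix0, Fin.ext_iff, hz, hu], h0⟩
    | succ j ih =>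
      have a1 := hw.ne _ _ ih.1
      have a2 := hw.σ _ _ ih.1 ▸ ih.2.smul n2 n1
      rw [h.sw, ← Function.iterate_succ_apply' π j, ← Function.iterate_succ_apply' π (j + 1)] at a1 a2
      exact ⟨a1, a2⟩
  have k2 : ∀ j, Tr X K C (π^[j] (.inl z)) (π^[j + 1] (.inl z)) := fun j => ⟨(k1 j).2, by
    have := (k1 (j + k)).2
    rwa [Nat.add_right_comm, h.it_add hk z hz (by omega), h.it_add hk z hz (by omega), Sum.swap_swap] at this⟩
  have k3 : ∀ i j : Fin l, i < j → j.val < k → Tr X K C (.inl i) (.inl j) := fun i ⟨j, hj⟩ e1 e2 => by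
    induction j with
    | zero => exact absurd e1 (by simp [Fin.lt_def])
    | succ j ih =>
      have a1 := k2 j
      rw [h.it_lt hk z hz ⟨j, by omega⟩ (by simp at e2 ⊢; omega), h.it_lt hk z hz ⟨j + 1, hj⟩ e2] at a1
      by_cases e3 : i.val = j
      · exact (show (⟨j, by omega⟩ : Fin l) = i from Fin.ext e3.symm) ▸ a1
      · simp only [Fin.lt_def] at e1 e2
        exact (ih (by omega) (by simp [Fin.lt_def]; omega) (by simp; omega)).trans a1 (by simp [ix0, Fin.ext_iff]; omega)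
          (by simp [ix0, Fin.ext_iff]; omega) (by simp [ix0, Fin.ext_iff])
  have k4 : ∀ i j : Fin l, i ≠ j → i.val < k → j.val < k → Tr X K C (.inl i) (.inl j) := fun i j e e1 e2 =>
    (lt_or_gt_of_ne e).elim (k3 i j · e2) fun e' => (k3 j i e' e1).symm e.symm
  have k5 : ∀ i : Fin l, i ≠ z → i.val < k → Tr X K C (.inl i) (.inr z) := fun i e1 e2 => by
    have a1 := k2 (k - 1)
    rw [h.it_lt hk z hz ⟨k - 1, by omega⟩ (by simp; omega), show k - 1 + 1 = 0 + k by omega,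
      h.it_add hk z hz (by omega)] at a1
    by_cases e3 : i = ⟨k - 1, by omega⟩
    · exact e3 ▸ a1
    · exact (k4 i _ e3 e2 (by simp; omega)).trans a1 e3 e1 (by simp [ix0, Fin.ext_iff]; omega)
  have k6 : ∀ i j : Fin l, i ≠ j → i.val < k → j.val < k → Tr X K C (.inl i) (.inr j) := fun i j e e1 e2 => by
    by_cases e3 : j = z
    · exact e3 ▸ k5 i (e3 ▸ e) e1
    by_cases e4 : i = z
    · exact e4 ▸ (k5 j e3 e2).swap.symm e3
    exact (k5 i e4 e1).trans (k4 z j (Ne.symm e3) (by omega) e2).swap e4 e (Ne.symm e3)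
  rcases a with a | a <;> rcases b with b | b
  exacts [k4 a b e ha hb, k6 a b e ha hb, (k6 a b e ha hb).swap, (k4 a b e ha hb).swap]

end Cfsg.Agent.Pres.OmG
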