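import Cfsg.Agent.Pres.OmM3
import Cfsg.Agent.Pres.OmM4

/-! The Schur multiplier of `PΩ⁻(2 l, q)`, `l ≥ 4` (`mult_minus`). -/

set_option autoImplicit false

namespace Cfsg.Agent.Pres.OmM

open Cfsg.Lie Cfsg.Agent.Chev Cfsg.Agent.Chev.Sys Cfsg.Agent.Mult Cfsg.Agent.ChAut Cfsg.Agent.TwM Cfsg.Agent.Schur
open Cfsg.Agent.Geom Cfsg.Agent.Geom.Formed Matrix
open Cfsg.Agent.AutCl hiding Good jO

attribute [local instance 100] LieRing.ofAssociativeRing

universe u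

theorem cyc_of {ι K : Type*} [Field K] [Fintype K] (A : Subgroup (ι → Kˣ)) (i : ι) (d : ℕ)
    (h1 : ∀ a ∈ A, a i = 1 → a = 1) (h2 : ∀ a ∈ A, a i ^ d = 1) (h3 : ∀ z : Kˣ, z ^ d = 1 → ∃ a ∈ A, a i = z) :
    IsCyclic A ∧ Nat.card A = d.gcd (Fintype.card K - 1) := by
  let f : A →* (powMonoidHom d : Kˣ →* Kˣ).ker :=
    ((Pi.evalMonoidHom _ i).comp A.subtype).codRestrict _ fun a => h2 a a.2
  have hf : Function.Bijective f := ⟨(injective_iff_map_eq_one _).2 fun a e =>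
    Subtype.ext (h1 a a.2 (congrArg Subtype.val e)), fun z => by
      obtain ⟨a, a1, a2⟩ := h3 z z.2
      exact ⟨⟨a, a1⟩, Subtype.ext a2⟩⟩
  have e := MulEquiv.ofBijective f hf
  exact ⟨isCyclic_of_surjective e.symm e.symm.surjective, (Nat.card_congr e.toEquiv).trans (Mult.card_pow_ker K d)⟩

variable {l : ℕ} (h3 : 3 ≤ l) {K : Type u} [Field K]

theorem π_symD (i : Fin l) : (symD h3).π i = Equiv.swap (α := Fin l) ⟨l - 2, by omega⟩ ⟨l - 1, by omega⟩ i := rfl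

theorem car_symD : car (D := (mdD h3).D) (⟨l - 2, by omega⟩ : Fin l) (sm (⟨l - 1, by omega⟩ : Fin l)) = 0 := by
  have e : ∀ j : Fin l, ((mdD h3).sm j).1 = if h : j.val + 1 < l then (.inl j, .inr ⟨j + 1, h⟩) else
      (.inl ⟨j - 1, by omega⟩, .inl j) := fun j => by simp only [mdD, CD.md, baseD]; split_ifs <;> rfl
  simp only [MD.sm_q, MD.car_q, MD.a, κD]
  change (ε0 ((mdD h3).sm _).1.1 + ε0 ((mdD h3).sm _).1.2) ⬝ᵥ (ε0 ((mdD h3).sm _).1.1 + ε0 ((mdD h3).sm _).1.2) = 0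
  rw [e, e, dif_pos (by simp; omega), dif_neg (by simp; omega)]
  simp only [add_dotProduct, dotProduct_add, ε0_dot', ix0, sg0, Fin.ext_iff]
  simp
  split_ifs <;> omega

theorem orth_symD (i : Fin l) (h : (symD h3).π i ≠ i) : car (D := (mdD h3).D) i (sm ((symD h3).π i)) = 0 := by
  rw [π_symD] at h ⊢
  rw [Equiv.swap_apply_def] at h ⊢
  split_ifs at h ⊢ with h1 h2
  · exact h1 ▸ car_symD h3
  · rw [h2, ← A_sm]; exact A_eq_zero_comm (by rw [A_sm]; exact car_symD h3)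
  · exact absurd rfl h

theorem zk_odd (h : Odd l) {a : Fin l → Kˣ} :
    a ∈ zker (mdD h3).D K ↔ ∃ z : Kˣ, z ^ 4 = 1 ∧ a = fun i => z ^ (ωD i ⬝ᵥ (l : ℤ) • 1) := by
  have e : ∀ z i, ((zkerDodd h3 K h).symm z).1 i = (z () : Kˣ) ^ (ωD i ⬝ᵥ (l : ℤ) • 1) := fun z i =>
    (show _ = ∏ k, (z k : Kˣ) ^ (ωD i ⬝ᵥ (l : ℤ) • 1) from rfl).trans (by simp)
  refine ⟨fun ha => ⟨_, (zkerDodd h3 K h ⟨a, ha⟩ ()).2, funext fun i => ?_⟩, ?_⟩
  · rw [← e, MulEquiv.symm_apply_apply]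
  · rintro ⟨z, hz, rfl⟩
    exact (funext (e fun _ => ⟨z, hz⟩)) ▸ ((zkerDodd h3 K h).symm fun _ => ⟨z, hz⟩).2

theorem zpow_of_mod {z : Kˣ} (hz : z ^ 4 = 1) {a b : ℤ} (h : 4 ∣ a - b) : z ^ a = z ^ b := by
  obtain ⟨c, hc⟩ := h
  rw [show a = b + 4 * c by omega, _root_.zpow_add, _root_.zpow_mul, show z ^ (4 : ℤ) = 1 from hz, _root_.one_zpow, mul_one]

theorem cyc_odd [Fintype K] (h : Odd l) {q : ℕ} {τ : K →+* K} (hτ : ∀ x, τ x = x ^ q) :
    IsCyclic ↥(zker (mdD h3).D K ⊓ Og.fixT (symD h3) τ) ∧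
      Nat.card ↥(zker (mdD h3).D K ⊓ Og.fixT (symD h3) τ) = ((4 : ℕ).gcd (q + 1)).gcd (Fintype.card K - 1) := by
  obtain ⟨t, ht⟩ := id h
  have n1 : 4 ∣ ωD (⟨l - 1, by omega⟩ : Fin l) ⬝ᵥ (l : ℤ) • 1 - 1 := by
    rw [ωD_last h3, dotProduct_smul, one_dotProduct_one, Fintype.card_fin, ht]
    exact ⟨t * t + t, by push_cast; ring⟩
  have n2 : 4 ∣ ωD (⟨l - 2, by omega⟩ : Fin l) ⬝ᵥ (l : ℤ) • 1 - -1 := by
    rw [ωD_pen h3, dotProduct_smul, sub_dotProduct, one_dotProduct_one, Fintype.card_fin, smul_dotProduct,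
      single_dotProduct, Pi.one_apply, ht]
    exact ⟨t * t, by simp; ring⟩
  have n3 : ∀ i : Fin l, i.val + 2 < l → 2 ∣ ωD i ⬝ᵥ (l : ℤ) • 1 := fun i hi =>
    Finset.dvd_sum fun k _ => Dvd.dvd.mul_right (by simp only [ωD, ωC, ps]; split_ifs <;> omega) _
  have hu : ∀ z : Kˣ, τ z = ((z ^ q : Kˣ) : K) := fun z => by simp [hτ]
  refine cyc_of _ (⟨l - 1, by omega⟩ : Fin l) _ (fun a ha e => ?_) (fun a ha => ?_) fun z hz => ?_
  · obtain ⟨z, hz, rfl⟩ := (zk_odd h3 h).1 ha.1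
    simp only [zpow_of_mod hz n1, zpow_one] at e
    simp [e]; rfl
  · obtain ⟨z, hz, rfl⟩ := (zk_odd h3 h).1 ha.1
    have := ha.2 (⟨l - 1, by omega⟩ : Fin l)
    simp only [π_symD, Equiv.swap_apply_right, zpow_of_mod hz n1, zpow_of_mod hz n2, zpow_one, hu, Units.val_inj] at this ⊢
    rw [pow_gcd_eq_one, pow_succ z q, ← this]
    exact ⟨hz, by simp⟩
  · rw [pow_gcd_eq_one, pow_succ z q, mul_eq_one_iff_eq_inv] at hz
    refine ⟨_, ⟨(zk_odd h3 h).2 ⟨z, hz.1, rfl⟩, fun i : Fin l => ?_⟩, by simp only [zpow_of_mod hz.1 n1, zpow_one]⟩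
    simp only [hu, Units.val_inj, π_symD, Equiv.swap_apply_def]
    rw [← zpow_natCast, ← _root_.zpow_mul, mul_comm, _root_.zpow_mul, zpow_natCast, hz.2, _root_.inv_zpow']
    refine zpow_of_mod hz.1 ?_
    split_ifs with h1 h2
    · rw [h1]; omega
    · rw [h2]; omega
    · have := n3 i (by simp only [Fin.ext_iff] at h1 h2; omega)
      omega

theorem cyc_even [Fintype K] (h : Even l) (τ : K →+* K) :
    IsCyclic ↥(zker (mdD h3).D K ⊓ Og.fixT (symD h3) τ) ∧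
      Nat.card ↥(zker (mdD h3).D K ⊓ Og.fixT (symD h3) τ) = (2 : ℕ).gcd (Fintype.card K - 1) := by
  obtain ⟨t, ht⟩ := h
  let e := zkerDeven h3 K t (by omega)
  have e1 : ∀ a, (e a true : Kˣ) = a.1 (⟨l - 1, by omega⟩ : Fin l) := fun _ => rfl
  have e2 : ∀ a, (e a false : Kˣ) = a.1 (⟨l - 2, by omega⟩ : Fin l) := fun _ => rfl
  have e3 : ∀ a ∈ zker (mdD h3).D K, ∀ i, τ (a i) = a i := fun a ha i => by
    have : (⟨a, ha⟩ : zker (mdD h3).D K) ^ 2 = 1 := e.injective (by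
      rw [map_pow, map_one]; exact funext fun b => Subtype.ext (e ⟨a, ha⟩ b).2)
    have := congrArg (fun a : zker (mdD h3).D K => (a.1 i : K)) this
    rcases mul_self_eq_one_iff.1 (show (a i : K) * a i = 1 by simpa [sq] using this) with e | e <;> simp [e]
  refine cyc_of _ (⟨l - 1, by omega⟩ : Fin l) _ (fun a ha e' => ?_) (fun a ha => (e ⟨a, ha.1⟩ true).2) fun z hz => ?_
  · have := ha.2 (⟨l - 1, by omega⟩ : Fin l)
    rw [e3 a ha.1, π_symD, Equiv.swap_apply_right, Units.val_inj, e'] at this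
    refine congrArg Subtype.val (e.injective (a₁ := ⟨a, ha.1⟩) (a₂ := 1) ?_)
    rw [map_one]
    funext b
    cases b
    exacts [Subtype.ext ((e2 _).trans this), Subtype.ext ((e1 _).trans e')]
  · set a := e.symm fun _ => ⟨z, hz⟩
    have a1 : a.1 (⟨l - 1, by omega⟩ : Fin l) = z := by rw [← e1, MulEquiv.apply_symm_apply]
    have a2 : a.1 (⟨l - 2, by omega⟩ : Fin l) = z := by rw [← e2, MulEquiv.apply_symm_apply]
    refine ⟨a.1, ⟨a.2, fun i : Fin l => ?_⟩, a1⟩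
    rw [e3 a.1 a.2, π_symD, Equiv.swap_apply_def]
    split_ifs with h1 h2
    · rw [h1, a1, a2]
    · rw [h2, a1, a2]
    · rfl

theorem sq_pow_mod {q : ℕ} (h : q % 2 = 1) (t : ℕ) : q ^ (2 * t) % 4 = 1 := by
  obtain ⟨k, rfl⟩ : ∃ k, q = 2 * k + 1 := ⟨q / 2, by omega⟩
  rw [pow_mul, show (2 * k + 1) ^ 2 = 1 + 4 * (k * k + k) by ring, Nat.pow_mod]
  simp

theorem gcd_four_odd {n : ℕ} (h : n % 2 = 1) : Nat.gcd 4 n = 1 :=
  Nat.Coprime.pow_left 2 (Nat.coprime_two_left.2 (Nat.odd_iff.2 h))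

theorem num_odd {q : ℕ} (hq : 0 < q) (h : Odd l) :
    ((4 : ℕ).gcd (q + 1)).gcd (q ^ 2 - 1) = Nat.gcd 4 (q ^ l + 1) := by
  rw [Nat.gcd_eq_left ((Nat.gcd_dvd_right _ _).trans (by rw [← one_pow 2, Nat.sq_sub_sq]; simp))]
  obtain ⟨t, rfl⟩ := h
  rcases Nat.mod_two_eq_zero_or_one q with e | e
  · have : 2 ∣ q ^ (2 * t + 1) := dvd_pow (Nat.dvd_of_mod_eq_zero e) (by omega)
    rw [gcd_four_odd (by omega), gcd_four_odd (by omega)]
  · have := sq_pow_mod e t
    rw [Nat.gcd_rec, Nat.gcd_rec 4 (_ ^ _ + 1), pow_succ, Nat.add_mod (_ * _), Nat.mul_mod, this]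
    simp

theorem num_even {q : ℕ} (hq : 0 < q) (h : Even l) (h0 : l ≠ 0) : (2 : ℕ).gcd (q ^ 2 - 1) = Nat.gcd 4 (q ^ l + 1) := by
  obtain ⟨t, rfl⟩ := h
  have h1 := Nat.one_le_pow 2 q hq
  rcases Nat.mod_two_eq_zero_or_one q with e | e
  · have a1 : 2 ∣ q ^ (t + t) := dvd_pow (Nat.dvd_of_mod_eq_zero e) h0
    have a2 : 2 ∣ q ^ 2 := dvd_pow (Nat.dvd_of_mod_eq_zero e) two_ne_zero
    rw [gcd_four_odd (by omega), Nat.gcd_rec, show (q ^ 2 - 1) % 2 = 1 by omega]; rfl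
  · have a1 := sq_pow_mod e t
    have a2 : q ^ 2 % 4 = 1 := sq_pow_mod e 1
    rw [Nat.gcd_rec, Nat.gcd_rec 4, show (q ^ 2 - 1) % 2 = 0 by omega, ← two_mul,
      show (q ^ (2 * t) + 1) % 4 = 2 by omega]
    rfl

omit h3 in
theorem mult_minus {F : Type u} [Field F] [Fintype F] (hl : 4 ≤ l) {a b : F}
    (hab : ∀ z₁ z₂ : F, z₁ ^ 2 + a * z₁ * z₂ + b * z₂ ^ 2 = 0 → z₁ = 0 ∧ z₂ = 0) :
    HasCyclicSchurMultiplier (POmega F (quadFormMinus (l - 1) F a b)) (Nat.gcd 4 (Fintype.card F ^ l + 1)) := by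
  obtain ⟨p, hp'⟩ := CharP.exists F
  have := Fact.mk (CharP.char_is_prime F p)
  obtain ⟨K, _, _, hF, -⟩ := exists_quad_ext hab
  have := Module.finite_of_finrank_pos (hF ▸ two_pos)
  have := Module.finite_of_finite F (M := K)
  have := Fintype.ofFinite K
  have := charP_of_injective_algebraMap (algebraMap F K).injective p
  have hc : Nat.card K = Nat.card F ^ 2 := by rw [Module.natCard_eq_pow_finrank (K := F), hF]
  have hc' : Fintype.card K = Fintype.card F ^ 2 := by simpa using hc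
  obtain ⟨τ, h1, -⟩ := exists_frobq hc'
  have hτ := orderOf_frobq hc' h1
  obtain ⟨f, hf⟩ := exists_isFix τ F (by rw [hτ, hc])
  obtain ⟨Γ, h2, h4, ⟨e⟩⟩ := exists_sub_minus hl p hf hτ hab
  have h3 : 3 ≤ l := Nat.le_of_succ_le hl
  have c := plusFull h3 K
  have hI := invol_autOm hl τ hτ
  have h5 : Gm (autOm hl τ) ≤ Γ := sup_le (fun y hy => h4 y hy.2 (exists_pow_of_mem c.c p (.inl hy.1)))
    fun y hy => h4 y hy.2 (exists_pow_of_mem c.c p (.inr hy.1))
  have h := hI.fold c.c h2 (c.top ▸ le_top) (le_sup_left.trans h5) (le_sup_right.trans h5)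
  have nd := quadMinus_nondeg F (l - 1) (disc_ne_zero_of_anisotropic hab)
  have hd : Module.finrank F ((Fin (l - 1) ⊕ Fin (l - 1)) ⊕ Fin 2 → F) = 2 * (l - 1) + 2 := by simp; omega
  have e' : commutator (OG (quadMinus F (l - 1) a b)) ≃* Γ :=
    (omegaEquiv _).symm.trans (coe_quadMinus F (l - 1) a b ▸ e)
  have p0 : commutator (commutator (OG (quadMinus F (l - 1) a b))) = ⊤ := by
    apply Subgroup.map_injective (Subgroup.subtype_injective _)
    rw [Subgroup.map_subtype_commutator, commutator_perfect nd (by omega), ← MonoidHom.range_eq_map,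
      Subgroup.range_subtype]
  have p1 : commutator Γ = ⊤ := by
    rw [← MonoidHom.range_eq_top.2 (show Function.Surjective e'.toMonoidHom from e'.surjective),
      MonoidHom.range_eq_map, ← p0, map_commutator_eq,
      MonoidHom.range_eq_top.2 (show Function.Surjective e'.toMonoidHom from e'.surjective), commutator_def]
  have := isSimpleGroup_POmega nd (by omega)
  have := (quotCenterCongr e').symm.isSimpleGroup
  obtain rfl : Γ = Gm (autOm hl τ) := le_antisymm ((gen_of_quasi h c.c p1).trans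
    (sup_le_sup (inf_le_inf_left _ h2) (inf_le_inf_left _ h2))) h5
  obtain ⟨β, b1, b2⟩ := exists_lift_aut c ((coD h3).allLiftD hl fun _ e => by
    have := Fintype.one_lt_card (α := F); nlinarith) (perfectD h3 K) (autOm hl τ)
  have O : Og β τ := ⟨⟨hI.hA, hI.le, hI.ge, hI.ρρ, b1 ▸ hI.aa, b1 ▸ hI.ex, b1 ▸ hI.h1⟩,
    fun r t => by rw [b1]; simp [autOm, autOf], orth_symD h3⟩
  have p2 := perfect_Gm c b2 p1
  have : Finite ((mdD h3).D.SteinbergCover K) := finite_sc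
  let c' : Full (scS (mdD h3).D K) := ⟨scCover _ K, scS_U_univ⟩
  have m1 := map_Gm c b2
  have s1 := O.hasCyc_one c' (spinD_tor h3 K) p hf fun E _ _ σ s hp => by
    obtain ⟨⟨z, hz⟩, ez⟩ := exists_prime_orderOf_dvd_card' p hp
    let σ' : E →* Gm β := σ.codRestrict _ s.mem
    let ρ : Gm β →* Gm (autOm hl τ) := ((plusS h3 K).lift.comp (Gm β).subtype).codRestrict _ fun y =>
      m1.le (Subgroup.mem_map_of_mem _ y.2)
    have E1 : IsCentralExt σ' := ⟨fun y => (s.surj y y.2).imp fun _ => Subtype.ext,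
      fun y hy => s.cent (congrArg Subtype.val hy)⟩
    have E2 : IsCentralExt ρ := ⟨fun y => by
      obtain ⟨x, a1, a2⟩ := m1.ge y.2
      exact ⟨⟨x, a1⟩, Subtype.ext a2⟩, fun y hy => Subgroup.mem_center_iff.2 fun x => Subtype.ext
        (Subgroup.mem_center_iff.1 ((isCentralExt_lift c.c c.top).central (congrArg Subtype.val hy)) x)⟩
    have E3 := isCentralExt_comp E1 p2 E2
    have := p_part (τ := ((commutator _).subtype.comp e'.symm.toMonoidHom).comp (ρ.comp σ')) nd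
      (quadMinus_wittIndex F (l - 1) hab) hd (by omega) (fun y hy => E3.central (by simpa using hy)) (by
        rw [MonoidHom.range_comp, MonoidHom.range_eq_top.2 E3.surj, ← MonoidHom.range_eq_map, MonoidHom.range_comp,
          MonoidHom.range_eq_top.2 (show Function.Surjective e'.symm.toMonoidHom from e'.symm.surjective),
          ← MonoidHom.range_eq_map, Subgroup.range_subtype]) p (a := z)
      (by rw [MonoidHom.comp_apply, ρ.comp_apply, show σ' z = 1 from Subtype.ext hz, map_one, map_one])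
      (s.comm hz) (by rw [← ez, ← Subgroup.orderOf_coe]; exact pow_orderOf_eq_one _)
    subst this
    exact (Fact.out : p.Prime).one_lt.ne (by rw [← ez]; exact (orderOf_one).symm)
  have m2 : (Gm β).map c'.c.π = (Gm (autOm hl τ)).map c.c.π := by
    rw [← m1, Subgroup.map_map]
    exact congrArg (Subgroup.map · _) (Sys.hom_ext scS_U_univ fun r t =>
      (c'.c.π_x r t).trans ((c.c.π_x r t).symm.trans (congrArg _ ((plusS h3 K).lift_scGen r t).symm)))
  have key : ∀ n, IsCyclic ↥(zker (mdD h3).D K ⊓ Og.fixT (symD h3) τ) ∧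
      Nat.card ↥(zker (mdD h3).D K ⊓ Og.fixT (symD h3) τ) = n →
      HasCyclicSchurMultiplier (POmega F (quadFormMinus (l - 1) F a b)) n := fun n hn => by
    have := hasCyc_map' c' s1 p2 (spinD_tor h3 K) (O.H_inf (spinD_tor h3 K)) hn.1 hn.2
    rw [m2] at this
    exact hasSchurMultiplier_congr_left this ((quotCenterCongr e).trans (Fold.quotEquiv h c)).symm
  rcases l.even_or_odd with he | he
  · have := cyc_even h3 he (τ : K →+* K)
    rw [hc', num_even Fintype.card_pos he (by omega)] at this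
    exact key _ this
  · have := cyc_odd h3 he (τ := (τ : K →+* K)) h1
    rw [hc', num_odd Fintype.card_pos he] at this
    exact key _ this

end Cfsg.Agent.Pres.OmM
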