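import Cfsg.Agent.Pres.OmG1
import Cfsg.Agent.Pres.OmM5

/-! Two generators for the orthogonal groups (`two_gen_B`, `two_gen_D`, `two_gen_tw`). -/

set_option autoImplicit false

namespace Cfsg.Agent.Pres.OmG

open Cfsg.Lie Cfsg.Agent.Chev Cfsg.Agent.Chev.Sys Cfsg.Agent.Mult Cfsg.Agent.ChAut Cfsg.Agent.Pres.OmM Matrix

attribute [-simp] zsmul_eq_mul

universe u

theorem ix0_inl {l : ℕ} (i : Fin l) : ix0 (.inl i) = i := id rfl
theorem ix0_inr {l : ℕ} (i : Fin l) : ix0 (.inr i) = i := id rfl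
theorem sg0_inl {l : ℕ} (i : Fin l) : sg0 (.inl i) = 1 := id rfl
theorem sg0_inr {l : ℕ} (i : Fin l) : sg0 (.inr i) = -1 := id rfl

theorem ne_of_val {l : ℕ} {i j : Fin l} (h : i.val ≠ j.val) : i ≠ j ∧ j ≠ i :=
  ⟨fun e => h (congrArg _ e), fun e => h (congrArg _ e.symm)⟩

attribute [local simp] A_refl_left A_refl_right A_ng_left A_ng_right Co.Aσσ Co.Aστ Co.Aτσ Co.Aττ ix0_swap sg0_swap
  ε0_dot' sg0_mul_self ix0_inl ix0_inr sg0_inl sg0_inr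

section
variable {D : ChevalleyDatum} [Good D] [Conn D] {F : Type*} [Field F] {G : Type*} [Group G] {X : Sys D F G}
  {K : Subgroup G} {l : ℕ}

theorem two_gen_B [Finite F] (C : Co D l 1 2) (hl : 3 ≤ l) (hF : ∃ x : F, x ≠ 0 ∧ x ≠ 1) :
    ∃ a b, ∀ K : Subgroup G, a ∈ K → b ∈ K → X.U Set.univ ≤ K := by
  obtain ⟨w, π, hw, h⟩ := exists_cyB C (by omega)
  obtain ⟨n, -, n2⟩ := X.exists_mem_N w
  obtain ⟨i0, v0⟩ : ∃ i : Fin l, i.val = 0 := ⟨⟨0, by omega⟩, rfl⟩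
  obtain ⟨i1, v1⟩ : ∃ i : Fin l, i.val = 1 := ⟨⟨1, by omega⟩, rfl⟩
  obtain ⟨i2, v2⟩ : ∃ i : Fin l, i.val = 2 := ⟨⟨2, by omega⟩, rfl⟩
  obtain ⟨⟨n01, n10⟩, ⟨n02, n20⟩, n12, n21⟩ : (i0 ≠ i1 ∧ i1 ≠ i0) ∧ (i0 ≠ i2 ∧ i2 ≠ i0) ∧ i1 ≠ i2 ∧ i2 ≠ i1 :=
    ⟨ne_of_val (by omega), ne_of_val (by omega), ne_of_val (by omega)⟩
  have p0 : π (.inl i0) = .inl i1 := h.lt _ _ (by omega) i1.2
  have p1 : π (.inl i1) = .inl i2 := h.lt _ _ (by omega) i2.2
  have p2 : π (.inr i1) = .inr i2 := (h.sw (.inl i1)).trans (congrArg _ p1)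
  have e1 : w • C.σ (.inl i0) (.inr i1) = C.σ (.inl i1) (.inr i2) := by rw [hw.σ _ _ (by simpa), p0, p2]
  have e2 : w • C.τ (.inl i0) = C.τ (.inl i1) := by rw [hw.τ one_ne_zero, p0]
  have e3 : w • C.τ (.inl i1) = C.τ (.inl i2) := by rw [hw.τ one_ne_zero, p1]
  obtain ⟨a, b, hab⟩ := tg_big' (mult_of_finite X) hF n2 (k := C.σ (.inl i0) (.inl i2)) (r := C.σ (.inl i0) (.inr i1))
    (s := C.τ (.inl i0)) (by rw [e1, e2, e3]; simp [n01, n10, n02, n20, n12, n21])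
    (by rw [e2]; simp [n01, n10, n02, n20, n12, n21])
    (by
      rw [e1, e2]
      exact comm_long (long_of_two (a := C.τ (.inr i1)) (by simp [n12, n21]) (by simp [n12, n21])) (by simp [n12, n21]))
  refine ⟨a, b, fun K k1 k2 => U_le.2 fun r _ => ?_⟩
  obtain ⟨d1, d2, d3⟩ := hab K k1 k2
  obtain ⟨a, b, e, rfl⟩ | ⟨-, a, rfl⟩ := C.cases r
  · have := (all_tr h le_rfl hw n2 d3 v0 v1 (by omega) d1 a b.swap (ix0 _).2 (ix0 _).2 (by simpa)).1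
    rwa [Sum.swap_swap] at this
  · exact h.orb le_rfl i0 v0 (Q := fun a => Rs X K (C.τ a)) (fun a ha => hw.τ one_ne_zero a ▸ ha.smul n2 d3) d2 a
      (ix0 _).2

theorem fin_D {C : Co D l 0 0} (hl : 3 ≤ l) {w : WG D} {π : Fin l ⊕ Fin l → Fin l ⊕ Fin l} (hw : Ac C w π)
    (h : Cy (l - 1) π) {n : G} (n2 : X.Mon n w) (n1 : n ∈ K)
    (T : ∀ a b, (ix0 a).val < l - 1 → (ix0 b).val < l - 1 → ix0 a ≠ ix0 b → Tr X K C a b) {c y : Fin l ⊕ Fin l}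
    (hc : (ix0 c).val < l - 1) (hy : (ix0 y).val = l - 1) (h1 : Rs X K (C.σ c y)) : X.U Set.univ ≤ K := by
  have ne : ∀ {a y : Fin l ⊕ Fin l}, (ix0 a).val < l - 1 → (ix0 y).val = l - 1 → ix0 a ≠ ix0 y := fun h1 h2 e => by
    rw [e] at h1; omega
  have k1 : ∀ {c y : Fin l ⊕ Fin l}, (ix0 c).val < l - 1 → (ix0 y).val = l - 1 → Rs X K (C.σ c y) →
      ∀ a, (ix0 a).val < l - 1 → Rs X K (C.σ a y) := fun {c y} hc hy h1 a ha => by
    by_cases e : ix0 a = ix0 c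
    · obtain ⟨b, b1, b2⟩ : ∃ b : Fin l ⊕ Fin l, (ix0 b).val < l - 1 ∧ ix0 b ≠ ix0 c := by
        by_cases e : (ix0 c).val = 0
        · exact ⟨.inl ⟨1, by omega⟩, by simp; omega, fun e' => by rw [← e'] at e; simp at e⟩
        · exact ⟨.inl ⟨0, by omega⟩, by simp; omega, fun e' => by rw [← e'] at e; simp at e⟩
      exact (T a b ha b1 (e ▸ b2.symm)).mv (e ▸ b2.symm) (ne ha hy) (ne b1 hy)
        ((T b c b1 hc b2).mv b2 (ne b1 hy) (ne hc hy) h1)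
    · exact (T a c ha hc e).mv e (ne ha hy) (ne hc hy) h1
  have k2 : π y = y.swap := by
    rcases y with y | y
    · exact h.gt y hy.ge
    · exact (h.sw (.inl y)).trans (congrArg _ (h.gt y hy.ge))
  have k3 := k1 hc hy h1 (.inl ⟨0, by omega⟩) (by simp [ix0]; omega)
  have k4 := k3.smul n2 n1
  rw [hw.σ _ _ (ne (by simp [ix0]; omega) hy), k2, h.lt _ ⟨1, by omega⟩ rfl (by simp; omega)] at k4
  have k5 : ∀ a y', (ix0 a).val < l - 1 → (ix0 y').val = l - 1 → Rs X K (C.σ a y') := fun a y' ha hy' => by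
    rcases eq_or_swap (Fin.ext (hy'.trans hy.symm)) with rfl | rfl
    exacts [k1 hc hy h1 a ha, k1 (by simp [ix0]; omega) hy' k4 a ha]
  refine U_le.2 fun r _ => ?_
  obtain ⟨a, b, e, rfl⟩ | h := C.cases r
  · have := (ix0 a).2
    have := (ix0 b).2
    have e' : (ix0 a).val ≠ ix0 b := fun e' => e (Fin.ext e')
    by_cases e1 : (ix0 b).val = l - 1
    · exact k5 a b (by omega) e1
    by_cases e2 : (ix0 a).val = l - 1
    · exact C.σ_comm e ▸ k5 b a (by omega) e2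
    have := (T a b.swap (by omega) (by rw [ix0_swap]; omega) (by simpa)).1
    rwa [Sum.swap_swap] at this
  · exact absurd rfl h.1

omit [Conn D] in
theorem ln_D (C : Co D l 0 0) (r s : Rt D) : ln r = ln s := by
  have hc := fun r => (C.cases r).resolve_right fun e => e.1 rfl
  obtain ⟨a, b, e, rfl⟩ := hc r
  obtain ⟨c, d, e', rfl⟩ := hc s
  exact C.lnσ e e'

omit [Conn D] in
theorem long_D (C : Co D l 0 0) (r : Rt D) : Long r := .inr fun k => (ln_D C _ _).le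

theorem two_gen_D [Finite F] (C : Co D l 0 0) (hl : 4 ≤ l) :
    ∃ a b, ∀ K : Subgroup G, a ∈ K → b ∈ K → X.U Set.univ ≤ K := by
  obtain ⟨w, π, hw, h⟩ := exists_cyD C (by omega)
  obtain ⟨n, -, n2⟩ := X.exists_mem_N w
  obtain ⟨i0, v0⟩ : ∃ i : Fin l, i.val = 0 := ⟨⟨0, by omega⟩, rfl⟩
  obtain ⟨i1, v1⟩ : ∃ i : Fin l, i.val = 1 := ⟨⟨1, by omega⟩, rfl⟩
  obtain ⟨i2, v2⟩ : ∃ i : Fin l, i.val = 2 := ⟨⟨2, by omega⟩, rfl⟩
  obtain ⟨z, vz⟩ : ∃ i : Fin l, i.val = l - 1 := ⟨⟨l - 1, by omega⟩, rfl⟩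
  have N : (i0 ≠ i1 ∧ i1 ≠ i0) ∧ (i0 ≠ i2 ∧ i2 ≠ i0) ∧ (i1 ≠ i2 ∧ i2 ≠ i1) ∧ (i0 ≠ z ∧ z ≠ i0) ∧ (i1 ≠ z ∧ z ≠ i1) ∧
      i2 ≠ z ∧ z ≠ i2 := ⟨ne_of_val (by omega), ne_of_val (by omega), ne_of_val (by omega), ne_of_val (by omega),
    ne_of_val (by omega), ne_of_val (by omega)⟩
  have p0 : π (.inl i0) = .inl i1 := h.lt _ _ (by omega) (by omega)
  have p1 : π (.inl i1) = .inl i2 := h.lt _ _ (by omega) (by omega)
  have p2 : π (.inr i1) = .inr i2 := (h.sw (.inl i1)).trans (congrArg _ p1)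
  have p3 : π (.inl z) = .inr z := h.gt _ vz.ge
  have p4 : π (.inr z) = .inl z := (h.sw (.inl z)).trans (congrArg _ p3)
  have T := fun K n1 => all_tr (K := K) h (by omega) hw n2 n1 v0 v1 (by omega)
  by_cases hF : ∃ x : F, x ≠ 0 ∧ x ≠ 1
  · have e1 : w • C.σ (.inl i0) (.inr i1) = C.σ (.inl i1) (.inr i2) := by rw [hw.σ _ _ (by simp [N]), p0, p2]
    have e2 : w • C.σ (.inl i0) (.inr z) = C.σ (.inl i1) (.inl z) := by rw [hw.σ _ _ (by simp [N]), p0, p4]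
    have e3 : w • C.σ (.inl i1) (.inl z) = C.σ (.inl i2) (.inr z) := by rw [hw.σ _ _ (by simp [N]), p1, p3]
    obtain ⟨a, b, hab⟩ := tg_big' (mult_of_finite X) hF n2 (k := C.σ (.inl i1) (.inr z)) (r := C.σ (.inl i0) (.inr i1))
      (s := C.σ (.inl i0) (.inr z)) (by rw [e1, e2, e3]; simp [N]) (by rw [e2]; simp [N])
      (by rw [e1, e2]; exact comm_long (long_D C _) (by simp [N]))
    refine ⟨a, b, fun K k1 k2 => ?_⟩
    obtain ⟨d1, d2, d3⟩ := hab K k1 k2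
    exact fin_D (by omega) hw h n2 d3 (T K d3 d1) (by simp; omega) (by simpa) d2
  · refine ⟨n, X.x (C.σ (.inl i0) (.inr i1)) 1 * (X.x (C.σ (.inl i2) (.inl z)) 1 *
      X.x (ng (C.σ (.inl i2) (.inl z))) 1), fun K k1 k2 => ?_⟩
    obtain ⟨d1, d2⟩ := tg_two' (sl_of_ln (ln_D C)) (fun x => by by_contra e; exact hF ⟨x, not_or.1 e⟩)
      (comm_long (long_D C _) (by simp [N]) _ _) (comm_long (long_D C _) (by simp [N]) _ _) k2
    have d3 := d2 _ (T K k1 d1 (.inl i0) (.inl i2) (by simp; omega) (by simp; omega) (by simp [N])).1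
      (comm_long (long_D C _) (by simp [N]) _ _) (by simp [N])
    rw [show refl (C.σ (.inl i2) (.inl z)) (C.σ (.inl i0) (Sum.inl i2).swap) = C.σ (.inl i0) (.inl z) from
      (eq_of_A (by simp [N]) (by simp [N])).symm] at d3
    exact fin_D (by omega) hw h n2 k1 (T K k1 d1) (by simp; omega) (by simpa) d3

omit [Good D] [Conn D] [Field F] in
theorem two_gen_quot (h : ∃ a b, ∀ K : Subgroup G, a ∈ K → b ∈ K → ⊤ ≤ K) (N : Subgroup G) [N.Normal] :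
    ∃ a b : G ⧸ N, Subgroup.closure {a, b} = ⊤ := by
  obtain ⟨a, b, h⟩ := h
  refine ⟨QuotientGroup.mk' _ a, QuotientGroup.mk' _ b, ?_⟩
  rw [← Set.image_pair, ← MonoidHom.map_closure, eq_top_iff.2 (h _ (Subgroup.subset_closure (by simp))
    (Subgroup.subset_closure (by simp))), ← MonoidHom.range_eq_map, QuotientGroup.range_mk']

theorem LN.le {S : Sym D} {Γ : Subgroup G} (h : X.Fold S Γ) (c : X.Cover) {E : Type*} [Field E] [Finite E] {i : Sm D}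
    {L : List (Sm D × (E →+* F))} (N : LN X S Γ i L) (he : ∀ t, eL X L t ∈ K) (hf : ∀ t, fL X L t ∈ K) :
    (∃ n ∈ X.N ⊓ Γ, X.Mon n (S.w1 i) ∧ n ∈ K) ∧ X.UI (S.w1 i) ⊓ Γ ≤ K := by
  have N' := N.node h c
  refine ⟨⟨_, ⟨(N'.n_mem 1 one_ne_zero).1, (nE N.e N.f 1).2⟩, (N'.n_mem 1 one_ne_zero).2,
    mul_mem (mul_mem (he _) (hf _)) (he _)⟩, fun u hu => ?_⟩
  obtain ⟨t, e⟩ := (N'.mem_e ⟨u, hu.2⟩).1 (UI_w1 (X := X) S i ▸ hu.1)
  exact (show u = eL X L t from congrArg Subtype.val e) ▸ he t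

end

variable {D : ChevalleyDatum} [Good D] [Conn D] {F : Type u} [Field F] {G : Type u} [Group G] {X : Sys D F G}
  {K : Subgroup G} {l : ℕ} {S : Sym D} {α : X.Aut S} {τ : F →+* F}

theorem Gm_le_of [Finite F] (h : Og α τ) (c : Full X) {F₀ : Type*} [Field F₀] [Finite F₀] {f : F₀ →+* F}
    (hf : ∀ x, x ∈ f.range ↔ τ x = x) (h1 : ∀ r t, S.ρ r = r → τ t = t → X.x r t ∈ K)
    (h2 : ∀ r t, S.ρ r ≠ r → X.x r t * X.x (S.ρ r) (τ t) ∈ K) : Gm α ≤ K := by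
  have g := h.gen c
  have key : ∀ i, (∃ n ∈ X.N ⊓ Gm α, X.Mon n (S.w1 i) ∧ n ∈ K) ∧ X.UI (S.w1 i) ⊓ Gm α ≤ K := fun i => by
    by_cases e : S.π i = i
    · have e1 : S.ρ (sm i) = sm i := by rw [S.ρ_sm, e]
      have hf' : ∀ t, τ (f t) = f t := fun t => (hf _).1 ⟨t, rfl⟩
      exact LN.le g.fold c.c (h.ln1 c hf e) (fun t => by simpa [eL_eq] using h1 _ _ e1 (hf' t))
        fun t => by simpa [fL_eq] using h1 (ng (sm i)) _ (by rw [S.ρ_ng, e1]) (hf' t)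
    · have e1 : S.ρ (sm i) ≠ sm i := by rw [S.ρ_sm]; exact fun e' => e (sm_injective e')
      exact LN.le g.fold c.c (h.ln2 c e) (fun t => by simpa [eL_eq, S.ρ_sm] using h2 _ t e1)
        fun t => by
          simpa [fL_eq, S.ρ_sm] using h2 (ng (sm i)) t (by rw [S.ρ_ng]; exact fun e' => e1 (by simpa using congrArg ng e'))
  have a1 : X.UP ⊓ Gm α ≤ K := g.fold.stable.UI_le (fun i => (key i).1.imp fun n h => ⟨h.1, h.2.1, fun z hz =>
    mul_mem (mul_mem (inv_mem h.2.2) hz) h.2.2⟩) fun i => (key i).2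
  obtain ⟨n, b1, b2, b3⟩ : ∃ n ∈ Gm α, X.Mon n (w0 Set.univ) ∧ n ∈ K :=
    S.W1_induction (P := fun w => ∃ n ∈ Gm α, X.Mon n w ∧ n ∈ K) ⟨1, one_mem _, X.mon_one, one_mem _⟩
      (fun w _ i _ ⟨n, a1, a2, a3⟩ => by
        obtain ⟨m, b1, b2, b3⟩ := (key i).1
        exact ⟨n * m, mul_mem a1 b1.2, a2.mul b2, mul_mem a3 b3⟩) (S.w0_mem_W1 (by simp))
  refine g.gen.trans (sup_le a1 fun v hv => ?_)
  simpa [mul_assoc] using mul_mem (mul_mem (inv_mem b3) (a1 ⟨(w0_UP b2 v).mpr hv.1,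
    (Gm α).mul_mem ((Gm α).mul_mem b1 hv.2) ((Gm α).inv_mem b1)⟩)) b3

theorem swD_lt {a : Fin l ⊕ Fin l} (h : (ix0 a).val < l - 1) : swD a = a := if_neg (by omega)

theorem swD_last {a : Fin l ⊕ Fin l} (h : (ix0 a).val = l - 1) : swD a = a.swap := if_pos (by have := (ix0 a).2; omega)

theorem Cy.swD {π : Fin l ⊕ Fin l → Fin l ⊕ Fin l} (h : Cy (l - 1) π) (a : Fin l ⊕ Fin l) :
    π (swD a) = swD (π a) := by
  have key : ∀ i : Fin l, π (Mult.swD (.inl i)) = Mult.swD (π (.inl i)) := fun i => by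
    have := i.2
    rcases lt_trichotomy (i.val + 1) (l - 1) with e | e | e
    · rw [swD_lt (by simp [ix0]; omega), h.lt i ⟨i + 1, by omega⟩ rfl e, swD_lt (by simpa [ix0])]
    · rw [swD_lt (by simp [ix0]; omega), h.eq i ⟨0, by omega⟩ e rfl, swD_lt (by simp [ix0]; omega)]
    · rw [swD_last (by simp [ix0]; omega), h.sw, h.gt i (by omega), swD_last (by simp [ix0]; omega)]
  rcases a with a | a
  · exact key a
  · rw [← Sum.swap_inl, swD_swap, h.sw, h.sw, swD_swap, key]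

theorem two_gen_tw [Finite F] (h : Og α τ) (c : Full X) {F₀ : Type*} [Field F₀] [Finite F₀] {f : F₀ →+* F}
    (hf : ∀ x, x ∈ f.range ↔ τ x = x) (hτ : ∃ x, τ x ≠ x) (C : Co D l 0 0) (hl : 3 ≤ l)
    (hS : ∀ a b, ix0 a ≠ ix0 b → S.ρ (C.σ a b) = C.σ (swD a) (swD b)) :
    ∃ a ∈ Gm α, ∃ b ∈ Gm α, ∀ K : Subgroup G, a ∈ K → b ∈ K → Gm α ≤ K := by
  have hc := fun r => (C.cases r).resolve_right fun e => e.1 rfl
  have gn := h.gen c
  have m := mult_of_finite X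
  obtain ⟨w, π, hw, cy⟩ := exists_cyD C (by omega)
  obtain ⟨n, -, n2, n1⟩ := gn.fold.exists_N (S.mem_W1_of (w := w) fun r => by
    obtain ⟨a, b, e, rfl⟩ := hc r
    rw [hS a b e, hw.σ _ _ (by simpa [ix0_swD]), hw.σ _ _ e, hS _ _ (hw.ne _ _ e), cy.swD, cy.swD])
  obtain ⟨g, hg⟩ := IsCyclic.exists_generator (α := Fˣ)
  have g1 : τ g ≠ g := fun e => by
    obtain ⟨x, hx⟩ := hτ
    obtain ⟨i, hi⟩ := hg (Units.mk0 x (by rintro rfl; simp at hx))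
    exact hx (by rw [show x = (g : F) ^ i by simpa using congrArg Units.val hi.symm, map_zpow₀, e])
  obtain ⟨i0, v0⟩ : ∃ i : Fin l, i.val = 0 := ⟨⟨0, by omega⟩, rfl⟩
  obtain ⟨i1, v1⟩ : ∃ i : Fin l, i.val = 1 := ⟨⟨1, by omega⟩, rfl⟩
  obtain ⟨z, vz⟩ : ∃ i : Fin l, i.val = l - 1 := ⟨⟨l - 1, by omega⟩, rfl⟩
  have N : (i0 ≠ i1 ∧ i1 ≠ i0) ∧ (i0 ≠ z ∧ z ≠ i0) ∧ (i1 ≠ z ∧ z ≠ i1) :=
    ⟨ne_of_val (by omega), ne_of_val (by omega), ne_of_val (by omega)⟩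
  have ne : ∀ {a y : Fin l ⊕ Fin l}, (ix0 a).val < l - 1 → (ix0 y).val = l - 1 → ix0 a ≠ ix0 y := fun h1 h2 e => by
    rw [e] at h1; omega
  have k2 : ∀ y, (ix0 y).val = l - 1 → π y = y.swap := by
    rintro (y | y) hy
    · exact cy.gt y hy.ge
    · exact (cy.sw (.inl y)).trans (congrArg _ (cy.gt y hy.ge))
  have s1 : ∀ a y, (ix0 a).val < l - 1 → (ix0 y).val = l - 1 → S.ρ (C.σ a y) = C.σ a y.swap := fun a y ha hy => by
    rw [hS _ _ (ne ha hy), swD_lt ha, swD_last hy]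
  have cm : ∀ r s t u, 0 ≤ A r s → Commute (X.x r t) (X.x s u) := fun r s t u e => comm_long (long_D C r) e t u
  have s2 : ∀ a y, (ix0 a).val < l - 1 → (ix0 y).val = l - 1 → A (C.σ a y) (S.ρ (C.σ a y)) = 0 := fun a y ha hy => by
    have := ne ha hy
    have := this.symm
    rw [s1 a y ha hy]; simp [*]
  let ν : G → G := fun y => y * α.σ y
  have ν1 : ∀ r t, ν (X.x r t) = X.x r t * X.x (S.ρ r) (τ t) := fun r t => by simp only [ν, h.σ_x]
  have ν2 : ∀ y ∈ Gm α, ∀ u, ν (y * u * y⁻¹) = y * ν u * y⁻¹ := fun y hy u => by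
    simp [ν, Aut.mem_fix.1 (Gm_le α hy), mul_assoc]
  have s3 := s2 (.inl i1) (.inl z) (by simp; omega) vz
  have s4 : A (C.σ (.inl i1) (.inl z)) (C.σ (.inl i0) (.inr z)) = -1 ∧
      A (S.ρ (C.σ (.inl i1) (.inl z))) (C.σ (.inl i0) (.inr z)) = 1 := by
    rw [s1 _ _ (by simp; omega) (by simpa)]; simp [N]
  have e2 : w • C.σ (.inl i0) (.inr z) = C.σ (.inl i1) (.inl z) := by
    rw [hw.σ _ _ (by simp [N]), cy.lt i0 i1 (by omega) (by omega), k2 (.inr z) vz]; rfl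
  generalize C.σ (.inl i1) (.inl z) = s at s3 s4 e2
  have c0 : ∀ r s : Rt D, A r s = 0 → CommIs D 0 r s [] := fun r s e =>
    commIs_of (ne_of_A (by omega)) (ne_ng_of_A (by omega)) ((long_D C r).not_comb e.ge)
  have hh : X.h s g * X.h (S.ρ s) (τ g) ∈ Gm α := X.h_mem2 (by
      rintro _ (rfl | rfl)
      exacts [⟨c0 _ _ s3, c0 (ng s) _ (by simp [s3])⟩, ⟨c0 _ _ (by simp [s3]), c0 (ng s) _ (by simp [s3])⟩]) τ
    (fun t => by rw [gword_cons, gword_cons, gword_nil, mul_one]; exact h.xx_mem (fun _ _ => cm _ _ _ _ s3.ge) t)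
    (fun t => by
      rw [← ng_val, ← ng_val, gword_cons, gword_cons, gword_nil, mul_one, ← S.ρ_ng]
      exact h.xx_mem (fun _ _ => cm _ _ _ _ (by simp [s3])) t) _
  have hH : X.h s g * X.h (S.ρ s) (τ g) ∈ X.H := mul_mem (X.h_mem_H _ g.ne_zero) (X.h_mem_H _ (by simp))
  have hx : ∀ r u, X.h s g * X.h (S.ρ s) (τ g) * X.x r u * (X.h s g * X.h (S.ρ s) (τ g))⁻¹ =
      X.x r (g ^ A s r * τ g ^ A (S.ρ s) r * u) := fun r u => by
    rw [mul_assoc _ _ u, ← X.h_conj s r g.ne_zero, ← X.h_conj _ r (show τ g ≠ 0 by simp)]; group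
  refine ⟨ν (X.x s 1) * n, mul_mem (ν1 _ _ ▸ h.xx_mem (fun _ _ => cm _ _ _ _ s3.ge) 1) n1, _, hh, fun K k1 k3 => ?_⟩
  obtain ⟨d1, -, d2⟩ := tg_half (f := fun t => ν (X.x s t)) (g := fun _ => 1) (κ := 0) (μ := ((g ^ (2 : ℤ) : Fˣ) : F))
    (μ' := g ^ (-1 : ℤ) * τ g)
    (fun a b => by
      rw [ν1, ν1, ν1, map_add, X.add, X.add]
      simp only [mul_assoc, (cm _ _ _ _ s3.ge).left_comm]) (by simp) (by simp)
    (fun t => by rw [← ν2 _ hh, hx, A_self, A_eq_zero_comm s3]; simp) (by simp)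
    (fun t => by
      have := conj_chi n2 (hx (C.σ (.inl i0) (.inr z))) t
      rw [e2, s4.1, s4.2, zpow_one] at this
      rw [← ν2 _ (mul_mem (mul_mem n1 hh) (inv_mem n1)), this]) (fun _ => by rw [mul_one, mul_inv_cancel])
    (commute_H m hH (n2.conj_mem_H hH)) (gn_zpow hg dvd_rfl fun e => g1 (by
      rcases mul_self_eq_one_iff.1 (show (g : F) * g = 1 by simpa [zpow_ofNat, sq] using congrArg Units.val e) with e | e <;>
        simp [e])) (fun e => g1 (by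
          rw [_root_.zpow_neg_one, inv_mul_eq_one₀ g.ne_zero] at e; exact e.symm)) k3 (by simpa using k1)
  rw [one_mul] at d2
  have mv : ∀ {y v}, X.Mon y v → y ∈ Gm α → y ∈ K → ∀ r, (∀ t, ν (X.x r t) ∈ K) → ∀ t, ν (X.x (v • r) t) ∈ K :=
    fun {y v} ⟨c, _, hc⟩ a1 a2 r a3 t => by
      rw [← (c r).mul_inv_cancel_left t, ← hc, ν2 y a1]
      exact mul_mem (mul_mem a2 (a3 _)) (inv_mem a2)
  have sw : ∀ a y, (ix0 a).val < l - 1 → (ix0 y).val = l - 1 → (∀ t, ν (X.x (C.σ a y) t) ∈ K) →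
      ∀ y', (ix0 y').val = l - 1 → ∀ t, ν (X.x (C.σ a y') t) ∈ K := fun a y ha hy a1 y' hy' t => by
    rcases eq_or_swap (Fin.ext (hy'.trans hy.symm)) with rfl | rfl
    · exact a1 t
    · have := a1 (τ t)
      rw [ν1, h.ττ, (cm _ _ _ _ (s2 a y ha hy).ge).eq] at this
      rwa [← s1 a y ha hy, ν1, h.inv.ρρ]
  have d3 : ∀ a, (ix0 a).val < l - 1 → ∀ y, (ix0 y).val = l - 1 → ∀ t, ν (X.x (C.σ a y) t) ∈ K := fun a ha =>
    (cy.orb (by omega) i0 v0 (Q := fun a => (ix0 a).val < l - 1 ∧ ∀ y, (ix0 y).val = l - 1 →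
      ∀ t, ν (X.x (C.σ a y) t) ∈ K) (fun a ⟨a1, a2⟩ => by
        have b1 : (ix0 (π a)).val < l - 1 := by
          have b2 := hw.ne _ _ (ne a1 (y := .inl z) vz)
          rw [k2 (.inl z) vz, ix0_swap] at b2
          have := (ix0 (π a)).2
          have : (ix0 (π a)).val ≠ l - 1 := fun e => b2 (Fin.ext (e.trans vz.symm))
          omega
        refine ⟨b1, sw _ (.inr z) b1 vz ?_⟩
        have := mv n2 n1 d2 _ (a2 (.inl z) vz)
        rwa [hw.σ _ _ (ne a1 (by simpa)), k2 (.inl z) vz] at this)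
      ⟨by simp; omega, sw _ (.inr z) (by simp; omega) vz (by
        simpa [← e2] using mv n2.inv (inv_mem n1) (inv_mem d2) s d1)⟩ a ha).2
  have cs : ∀ r, (∃ a b, ix0 a ≠ ix0 b ∧ (ix0 a).val < l - 1 ∧ (ix0 b).val < l - 1 ∧ r = C.σ a b) ∨
      ∃ a y, (ix0 a).val < l - 1 ∧ (ix0 y).val = l - 1 ∧ r = C.σ a y := fun r => by
    obtain ⟨a, b, e, rfl⟩ := hc r
    have := (ix0 a).2
    have := (ix0 b).2
    have e' : (ix0 a).val ≠ ix0 b := fun e' => e (Fin.ext e')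
    by_cases e1 : (ix0 b).val = l - 1
    · exact .inr ⟨a, b, by omega, e1, rfl⟩
    by_cases e2 : (ix0 a).val = l - 1
    · exact .inr ⟨b, a, by omega, e2, (C.σ_comm e).symm⟩
    exact .inl ⟨a, b, e, by omega, by omega, rfl⟩
  refine Gm_le_of h c hf (fun r t e ht => ?_) fun r t e => ?_
  · obtain ⟨a, b, e1, ha, hb, rfl⟩ | ⟨a, y, ha, hy, rfl⟩ := cs r
    swap
    · have := s2 a y ha hy
      rw [e, A_self] at this; omega
    obtain ⟨y, hy⟩ : ∃ y : Fin l ⊕ Fin l, (ix0 y).val = l - 1 := ⟨.inl z, vz⟩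
    have hy' : (ix0 y.swap).val = l - 1 := by rwa [ix0_swap]
    have a1 := ne ha hy
    have a2 := ne hb hy
    have := a1.symm; have := a2.symm; have := e1.symm
    obtain ⟨ε, b1, b2⟩ := comm_sl (X := X) (sl_of_ln (ln_D C)) (r := C.σ a y) (s := C.σ b y.swap) (by simp [*])
    rw [show refl (C.σ a y) (C.σ b y.swap) = C.σ a b from (eq_of_A (by simp [*]) (by simp [*])).symm] at b2
    obtain ⟨u, rfl⟩ := exists_tr (f := fun u => u + τ u) (φ := τ) (fun a t e => by simp [e, add_mul])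
      (fun a => by simp [h.ττ, add_comm]) (by
        by_contra! h'
        exact g1 (by linear_combination h' g - g * h' 1 + g * map_one τ)) ht
    have b3 := congrArg ν (b2 (ε * u) 1)
    rw [← mul_assoc ε, b1, one_mul, mul_one] at b3
    have c1 := d3 a ha y hy (ε * u)
    have c2 := d3 b hb y.swap hy' 1
    rw [ν1, s1 _ _ ha hy] at c1
    rw [ν1, s1 _ _ hb hy', Sum.swap_swap] at c2
    simp only [ν, map_mul, h.σ_x, e, s1 a y ha hy, s1 b y.swap hb hy', Sum.swap_swap, mul_assoc] at b3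
    rw [(cm (C.σ a y) (C.σ b y) _ _ (by simp [*])).left_comm, (cm (C.σ a b) (C.σ a y.swap) _ _ (by simp [*])).left_comm,
      (cm (C.σ b y.swap) (C.σ a y.swap) _ _ (by simp [*])).left_comm,
      (cm (C.σ a b) (C.σ b y) _ _ (by simp [*])).left_comm, ← X.add] at b3
    have c3 := mul_mem c2 c1
    simp only [mul_assoc, map_mul] at c3
    rw [b3, ← mul_assoc, ← mul_assoc (_ * _), ← mul_assoc (_ * _), mul_assoc (_ * _) (X.x _ 1)] at c3
    exact (K.mul_mem_cancel_left (mul_mem (map_mul τ ε u ▸ c1) c2)).1 c3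
  · obtain ⟨a, b, e1, ha, hb, rfl⟩ | ⟨a, y, ha, hy, rfl⟩ := cs r
    · exact absurd (by rw [hS _ _ e1, swD_lt ha, swD_lt hb]) e
    · exact ν1 _ _ ▸ d3 a ha y hy t

end Cfsg.Agent.Pres.OmG
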