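import Cfsg.Agent.Pres.OmG2

/-! `Ω⁻(2 l, q)` as the group generated by the unipotent fixed points (`exists_Gm_minus`); two generators
(`two_gen_minus`). -/

set_option autoImplicit false

namespace Cfsg.Agent.Pres.OmG

open Cfsg.Lie Cfsg.Agent.Chev Cfsg.Agent.Chev.Sys Cfsg.Agent.Mult Cfsg.Agent.ChAut Cfsg.Agent.Pres.OmM
open Cfsg.Agent.Geom Cfsg.Agent.Geom.Formed
open Cfsg.Agent.AutCl hiding Good jO

attribute [local instance 100] LieRing.ofAssociativeRing

universe u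

variable {l : ℕ}

theorem σ_q (h3 : 3 ≤ l) (r : (cdD l).R) : (coD h3).σ r.1.1 r.1.2 = (mdD h3).q r := by
  have e : ix0 r.1.1 ≠ ix0 r.1.2 := ne_of_lt (lt_of_RD r)
  refine (coD h3).eq_of ?_ ?_
  · rw [Co.ρσ _ e]; simp only [coD, MD.toCo, Equiv.symm_apply_apply]; rfl
  · rw [Co.κσ _ e]; simp only [coD, MD.toCo, Equiv.symm_apply_apply, κD]; rfl

theorem ρ_symD (h3 : 3 ≤ l) (a b : Fin l ⊕ Fin l) (e : ix0 a ≠ ix0 b) :
    (symD h3).ρ ((coD h3).σ a b) = (coD h3).σ (swD a) (swD b) := by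
  have key : ∀ a b : Fin l ⊕ Fin l, ix0 a < ix0 b → (symD h3).ρ ((coD h3).σ a b) = (coD h3).σ (swD a) (swD b) :=
    fun a b e => by
      have h1 := σ_q h3 ⟨(a, b), .inl e⟩
      have h2 := σ_q h3 (revD ⟨(a, b), .inl e⟩)
      have h4 := swD_fst (l := l) ⟨(a, b), .inl e⟩
      simp only [revD_val] at h1 h2 h4
      rw [h1, symD_q, h4, h2]
  rcases lt_or_gt_of_ne e with e' | e'
  · exact key a b e'
  · rw [← Co.σ_comm _ e, key b a e', Co.σ_comm _ (by simpa [ix0_swD])]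

theorem exists_Gm_minus {F : Type u} [Field F] [Fintype F] (hl : 4 ≤ l) {a b : F}
    (hab : ∀ z₁ z₂ : F, z₁ ^ 2 + a * z₁ * z₂ + b * z₂ ^ 2 = 0 → z₁ = 0 ∧ z₂ = 0) :
    ∃ (K : Type u) (_ : Field K) (_ : Fintype K) (τ : K ≃+* K) (f : F →+* K), Fintype.card K = Fintype.card F ^ 2 ∧
      (∀ x, τ x = x ^ Fintype.card F) ∧ orderOf τ = 2 ∧ IsFix f τ ∧ Og (autOm hl τ) τ ∧
      Nonempty (Omega F (quadFormMinus (l - 1) F a b) ≃* Gm (autOm hl τ)) := by
  obtain ⟨p, hp'⟩ := CharP.exists F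
  have := Fact.mk (CharP.char_is_prime F p)
  obtain ⟨K, _, _, hF, -⟩ := exists_quad_ext hab
  have := Module.finite_of_finrank_pos (hF ▸ two_pos)
  have := Module.finite_of_finite F (M := K)
  have := Fintype.ofFinite K
  have := charP_of_injective_algebraMap (algebraMap F K).injective p
  have hc : Nat.card K = Nat.card F ^ 2 := by rw [Module.natCard_eq_pow_finrank (K := F), hF]
  have hc' : Fintype.card K = Fintype.card F ^ 2 := by simpa using hc
  obtain ⟨τ, h1, -⟩ := exists_frobq hc'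
  have hτ := orderOf_frobq hc' h1
  obtain ⟨f, hf⟩ := exists_isFix τ F (by rw [hτ, hc])
  obtain ⟨Γ, h2, h4, ⟨e⟩⟩ := exists_sub_minus hl p hf hτ hab
  have h3 : 3 ≤ l := Nat.le_of_succ_le hl
  have c := plusFull h3 K
  have hI := invol_autOm hl τ hτ
  have h5 : Gm (autOm hl τ) ≤ Γ := sup_le (fun y hy => h4 y hy.2 (exists_pow_of_mem c.c p (.inl hy.1)))
    fun y hy => h4 y hy.2 (exists_pow_of_mem c.c p (.inr hy.1))
  have h := hI.fold c.c h2 (c.top ▸ le_top) (le_sup_left.trans h5) (le_sup_right.trans h5)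
  have nd := quadMinus_nondeg F (l - 1) (disc_ne_zero_of_anisotropic hab)
  have hd : Module.finrank F ((Fin (l - 1) ⊕ Fin (l - 1)) ⊕ Fin 2 → F) = 2 * (l - 1) + 2 := by simp; omega
  have e' : commutator (OG (quadMinus F (l - 1) a b)) ≃* Γ :=
    (omegaEquiv _).symm.trans (coe_quadMinus F (l - 1) a b ▸ e)
  have p0 : commutator (commutator (OG (quadMinus F (l - 1) a b))) = ⊤ := by
    apply Subgroup.map_injective (Subgroup.subtype_injective _)
    rw [Subgroup.map_subtype_commutator, commutator_perfect nd (by omega), ← MonoidHom.range_eq_map,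
      Subgroup.range_subtype]
  have p1 : commutator Γ = ⊤ := by
    rw [← MonoidHom.range_eq_top.2 (show Function.Surjective e'.toMonoidHom from e'.surjective),
      MonoidHom.range_eq_map, ← p0, map_commutator_eq,
      MonoidHom.range_eq_top.2 (show Function.Surjective e'.toMonoidHom from e'.surjective), commutator_def]
  have := isSimpleGroup_POmega nd (by omega)
  have := (quotCenterCongr e').symm.isSimpleGroup
  obtain rfl : Γ = Gm (autOm hl τ) := le_antisymm ((gen_of_quasi h c.c p1).trans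
    (sup_le_sup (inf_le_inf_left _ h2) (inf_le_inf_left _ h2))) h5
  exact ⟨K, _, _, τ, f, hc', h1, hτ, hf, ⟨hI, fun r t => by simp [autOm, autOf], orth_symD h3⟩, ⟨e⟩⟩

theorem two_gen_minus {F : Type u} [Field F] [Fintype F] (hl : 4 ≤ l) {a b : F}
    (hab : ∀ z₁ z₂ : F, z₁ ^ 2 + a * z₁ * z₂ + b * z₂ ^ 2 = 0 → z₁ = 0 ∧ z₂ = 0) :
    ∃ g h, ∀ K : Subgroup (Omega F (quadFormMinus (l - 1) F a b)), g ∈ K → h ∈ K → ⊤ ≤ K := by
  obtain ⟨K, _, _, τ, f, -, -, hτ, hf, O, ⟨e⟩⟩ := exists_Gm_minus hl hab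
  have h3 : 3 ≤ l := Nat.le_of_succ_le hl
  obtain ⟨x, hx, y, hy, h⟩ := two_gen_tw O (plusFull h3 K) hf
    (not_forall.1 fun h => by simp [show τ = 1 from RingEquiv.ext h] at hτ) (coD h3) h3 (ρ_symD h3)
  refine ⟨e.symm ⟨x, hx⟩, e.symm ⟨y, hy⟩, fun L h1 h2 z _ => ?_⟩
  obtain ⟨v, a1, a2⟩ := h (L.map ((Subgroup.subtype _).comp e.toMonoidHom)) ⟨_, h1, by simp⟩ ⟨_, h2, by simp⟩ (e z).2
  exact e.injective (Subtype.ext a2) ▸ a1

end Cfsg.Agent.Pres.OmG
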