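import Cfsg.Agent.Geom.OmegaSimple

/-! Additive and biadditive maps invariant under Eichler transformations (`kill1`, `kill2`, `bil`, `Cf.kill`). -/

set_option autoImplicit false

namespace Cfsg.Agent.Pres

open Module Geom Geom.Formed QuadraticMap
open scoped commutatorElement

variable {F : Type*} [Field F] {V : Type*} [AddCommGroup V] [Module F V] {Q : QuadraticForm F V} {E : Type*} [Group E]

local notation "𝔟" => polar Q

variable (Q) in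
/-- The vectors orthogonal to a list. -/
def Pp (l : List V) : Submodule F V where
  carrier := {x | ∀ y ∈ l, 𝔟 y x = 0}
  add_mem' ha hb y hy := by simp [ha y hy, hb y hy]
  zero_mem' := by simp
  smul_mem' c _ h y hy := by simp [h y hy]

@[simp] theorem mem_Pp_nil {x : V} : x ∈ Pp Q [] := fun _ h => nomatch h

@[simp] theorem mem_Pp_cons {x y : V} {l : List V} : x ∈ Pp Q (y :: l) ↔ 𝔟 y x = 0 ∧ x ∈ Pp Q l := List.forall_mem_cons

variable (Q) in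
/-- A hyperbolic pair. -/
abbrev Pr (e f : V) : Prop := Q e = 0 ∧ Q f = 0 ∧ 𝔟 e e = 0 ∧ 𝔟 f f = 0 ∧ 𝔟 e f = 1 ∧ 𝔟 f e = 1

variable (Q) in
/-- Orthogonal pairs. -/
abbrev Ot (e f v w : V) : Prop := (𝔟 e v = 0 ∧ 𝔟 e w = 0 ∧ 𝔟 f v = 0 ∧ 𝔟 f w = 0) ∧
  𝔟 v e = 0 ∧ 𝔟 w e = 0 ∧ 𝔟 v f = 0 ∧ 𝔟 w f = 0

theorem Pr.swap {e f : V} (h : Pr Q e f) : Pr Q f e := by simp [Pr, h]

variable (Q) in
/-- A hyperbolic pair in `X` with two more vectors. -/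
structure Fr (X : Submodule F V) (z z' x y : V) : Prop where
  p : Pr Q z z'
  zX : z ∈ X
  zX' : z' ∈ X
  xX : x ∈ X
  yX : y ∈ X
  o : 𝔟 z x = 0 ∧ 𝔟 z y = 0 ∧ 𝔟 z' x = 0 ∧ 𝔟 z' y = 0 ∧ 𝔟 x y = 1

section
variable {X : Submodule F V} {φ : V → E} {θ : V → V → E} {z z' x₀ y₀ : V}

theorem Fr.swap (r : Fr Q X z z' x₀ y₀) : Fr Q X z' z x₀ y₀ := ⟨r.p.swap, r.zX', r.zX, r.xX, r.yX, by simp [r.o]⟩

theorem kill1 (ha : ∀ x ∈ X, ∀ y ∈ X, φ (x + y) = φ x * φ y) (hz : Q z = 0) (zX : z ∈ X) (hx : x₀ ∈ X) (hy : y₀ ∈ X)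
    (h1 : 𝔟 z x₀ = 0) (h2 : 𝔟 z y₀ = 0) (h3 : 𝔟 x₀ y₀ = 1)
    (hi : ∀ a ∈ X, 𝔟 z a = 0 → ∀ y ∈ X, φ ((eich Q z a).1 y) = φ y) (t : F) : φ (t • z) = 1 := by
  have := hi (t • x₀) (X.smul_mem t hx) (by simp [h1]) y₀ hy
  rw [eich_apply_of_perp hz (by simp [h1]) h2, ha _ hy _ (X.smul_mem _ zX)] at this
  simpa [h3] using this

variable (r : Fr Q X z z' x₀ y₀)
include r

theorem kill2 (ha : ∀ x ∈ X, ∀ y ∈ X, φ (x + y) = φ x * φ y)
    (hi : ∀ a ∈ X, 𝔟 z a = 0 → ∀ y ∈ X, φ ((eich Q z a).1 y) = φ y) : ∀ y ∈ X, 𝔟 z y = 0 → φ y = 1 := fun y yX h => by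
  have := hi (-y) (neg_mem yX) (by simp [h]) z' r.zX'
  rw [eich_apply r.p.1 (by simp [h]), r.p.2.2.2.2.1, one_smul, sub_neg_eq_add, add_assoc,
    ha _ r.zX' _ (add_mem (X.smul_mem _ r.zX) yX), ha _ (X.smul_mem _ r.zX) _ yX,
    kill1 ha r.p.1 r.zX r.xX r.yX r.o.1 r.o.2.1 r.o.2.2.2.2 hi] at this
  simpa using this

theorem kill3 (ha : ∀ x ∈ X, ∀ y ∈ X, φ (x + y) = φ x * φ y)
    (hi : ∀ a ∈ X, 𝔟 z a = 0 → ∀ y ∈ X, φ ((eich Q z a).1 y) = φ y)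
    (hi' : ∀ a ∈ X, 𝔟 z' a = 0 → ∀ y ∈ X, φ ((eich Q z' a).1 y) = φ y) : ∀ y ∈ X, φ y = 1 := fun y yX => by
  have m := X.smul_mem (𝔟 z y) r.zX'
  rw [← sub_add_cancel y (𝔟 z y • z'), ha _ (sub_mem yX m) _ m, kill2 r ha hi _ (sub_mem yX m)
    (by simp [r.p]), kill2 r.swap ha hi' _ m (by simp [r.p]), mul_one]

variable (a1 : ∀ x ∈ X, ∀ w ∈ X, ∀ w' ∈ X, θ x (w + w') = θ x w * θ x w')
  (a2 : ∀ x ∈ X, ∀ x' ∈ X, ∀ w ∈ X, θ (x + x') w = θ x w * θ x' w)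
  (hi : ∀ a ∈ X, polar Q z a = 0 → ∀ x ∈ X, ∀ w ∈ X, θ ((eich Q z a).1 x) ((eich Q z a).1 w) = θ x w)
include a1 a2 hi

theorem bil0 (c : F) : ∀ w ∈ X, 𝔟 z w = 0 → θ (c • z) w = 1 ∧ θ w (c • z) = 1 := fun w wX h => by
  have m := X.smul_mem c r.zX
  have e : ∀ a, 𝔟 z a = 0 → (eich Q z a).1 (c • z) = c • z := fun a h => by rw [map_smul, eich_apply_self r.p.1 h]
  exact ⟨kill2 r (a1 _ m) (fun a aX h y yX => by rw [← hi a aX h _ m y yX, e a h]) w wX h,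
    kill2 r (φ := fun w => θ w (c • z)) (fun x hx y hy => a2 x hx y hy _ m)
      (fun a aX h y yX => by rw [← hi a aX h y yX _ m, e a h]) w wX h⟩

theorem bil1 (c : F) {a b : V} (aX : a ∈ X) (bX : b ∈ X) (ha : 𝔟 z a = 0) (hb : 𝔟 z b = 0) :
    θ (c • z') b * θ (c • a) b = θ (c • z') b * θ (c • z') (𝔟 a b • z) := by
  have m := X.smul_mem c r.zX'
  have s := fun c => X.smul_mem c r.zX
  have := hi (-a) (neg_mem aX) (by simp [ha]) _ m _ (add_mem bX (s (𝔟 a b)))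
  rwa [eich_apply_of_perp (x := _ + _) r.p.1 (by simp [ha]) (by simp [hb, r.p]), eich_apply r.p.1 (by simp [ha]),
    a1 _ m _ bX _ (s _), show ∀ k : F, c • z' + k • z - 𝔟 z (c • z') • -a = c • z' + (k • z + c • a) from
      fun k => by simp [r.p, add_assoc], show b + 𝔟 a b • z + 𝔟 (-a) (b + 𝔟 a b • z) • z = b by
        simp [polar_comm Q a z, ha], a2 _ m _ (add_mem (s _) (X.smul_mem _ aX)) _ bX,
    a2 _ (s _) _ (X.smul_mem _ aX) _ bX, (bil0 r a1 a2 hi _ b bX hb).1, one_mul] at this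

theorem bil (hi' : ∀ a ∈ X, 𝔟 z' a = 0 → ∀ x ∈ X, ∀ w ∈ X, θ ((eich Q z' a).1 x) ((eich Q z' a).1 w) = θ x w) :
    ∀ x ∈ X, ∀ w ∈ X, θ x w = θ z' (𝔟 x w • z) := fun x xX w wX => by
  have k0 := bil0 r a1 a2 hi
  have k2 := bil0 r.swap a1 a2 hi'
  have s := fun c => X.smul_mem c r.zX
  have s' := fun c => X.smul_mem c r.zX'
  have sx := fun c => X.smul_mem c r.xX
  have k4 : ∀ a ∈ X, 𝔟 z a = 0 → ∀ b ∈ X, 𝔟 z b = 0 → θ a b = θ z' (𝔟 a b • z) := fun a aX ha b bX hb => by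
    simpa using bil1 r a1 a2 hi 1 aX bX ha hb
  have k5 : ∀ c t : F, θ (c • t • x₀) y₀ = θ z' ((c * t) • z) := fun c t => by
    rw [k4 _ (X.smul_mem _ (sx _)) (by simp [r.o]) _ r.yX r.o.2.1]; simp [r.o]
  have k6 : ∀ c t : F, θ (c • z') (t • z) = θ z' ((c * t) • z) := fun c t => by
    simpa [k5, r.o, eq_comm] using bil1 r a1 a2 hi c (sx t) r.yX (by simp [r.o]) r.o.2.1
  have k7 : ∀ c t : F, θ (c • z) (t • z') = θ z' ((c * t) • z) := fun c t => by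
    simpa [k5, r.o, eq_comm] using bil1 r.swap a1 a2 hi' c (sx t) r.yX (by simp [r.o]) r.o.2.2.2.1
  obtain ⟨a, aX, a3, a4, c, d, rfl⟩ : ∃ a ∈ X, 𝔟 z a = 0 ∧ 𝔟 z' a = 0 ∧ ∃ c d : F, x = c • z + a + d • z' :=
    ⟨x - 𝔟 z' x • z - 𝔟 z x • z', sub_mem (sub_mem xX (s _)) (s' _), by simp [r.p], by simp [r.p], _, _, by abel⟩
  obtain ⟨b, bX, b3, b4, c', d', rfl⟩ : ∃ a ∈ X, 𝔟 z a = 0 ∧ 𝔟 z' a = 0 ∧ ∃ c d : F, w = c • z + a + d • z' :=
    ⟨w - 𝔟 z' w • z - 𝔟 z w • z', sub_mem (sub_mem wX (s _)) (s' _), by simp [r.p], by simp [r.p], _, _, by abel⟩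
  have m := add_mem (s c') bX
  have m' := add_mem (s c) aX
  rw [a2 _ m' _ (s' _) _ wX, a1 _ m' _ m _ (s' _), k4 _ m' (by simp [r.p, a3]) _ m (by simp [r.p, b3]),
    a2 _ (s _) _ aX _ (s' _), k7, (k2 _ a aX a4).2, add_assoc (c' • z), a1 _ (s' _) _ (s _) _ (add_mem bX (s' _)), k6,
    (k2 _ _ (add_mem bX (s' _)) (by simp [r.p, b4])).1, mul_one, mul_one, ← a1 _ r.zX' _ (s _) _ (s _),
    ← a1 _ r.zX' _ (add_mem (s _) (s _)) _ (s _), ← add_smul, ← add_smul]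
  congr 2
  simp [r.p, a3, a4, b3, b4, polar_comm Q a z, polar_comm Q a z']
  ring

end

variable (Q) in
/-- Three orthogonal hyperbolic pairs. -/
structure Cf (e f v v' u u' : V) : Prop where
  p1 : Pr Q e f
  p2 : Pr Q v v'
  p3 : Pr Q u u'
  o1 : Ot Q e f v v'
  o2 : Ot Q e f u u'
  o3 : Ot Q v v' u u'

variable (Q) in
/-- Dimension at least `8`, and not of plus type. -/
structure Geo : Prop where
  nd : (ofQuad Q).Nondeg
  dim : 8 ≤ finrank F V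
  w : ∀ U, (ofQuad Q).TotSing U → 2 * finrank F U < finrank F V

variable {e f v v' u u' : V}

theorem Cf.s12 (c : Cf Q e f v v' u u') : Cf Q v v' e f u u' := ⟨c.p2, c.p1, c.p3, by simp [Ot, c.o1], c.o3, c.o2⟩

theorem Cf.s2 (c : Cf Q e f v v' u u') : Cf Q e f v' v u u' :=
  ⟨c.p1, c.p2.swap, c.p3, by simp [Ot, c.o1], c.o2, by simp [Ot, c.o3]⟩

theorem Cf.s3 (c : Cf Q e f v v' u u') : Cf Q e f v v' u' u :=
  ⟨c.p1, c.p2, c.p3.swap, c.o1, by simp [Ot, c.o2], by simp [Ot, c.o3]⟩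

theorem refl_comm_apply {a b : V} (ha : Q a ≠ 0) (hb : Q b ≠ 0) (h1 : 𝔟 a b ≠ 0) (h2 : 𝔟 a b ^ 2 - 4 * Q a * Q b ≠ 0) :
    ∃ s t : F, ⁅refl Q a, refl Q b⁆.1 (s • a + t • b) = s • a + t • b + a := by
  have e1 : ∀ s t : F, (refl Q a).1 (s • a + t • b) = (-s - t * 𝔟 a b / Q a) • a + t • b := fun s t => by
    simp only [refl_apply, polar_add_right, polar_smul_right, polar_self', smul_eq_mul]
    match_scalars <;> field_simp; ring
  have e2 : ∀ s t : F, (refl Q b).1 (s • a + t • b) = s • a + (-t - s * 𝔟 a b / Q b) • b := fun s t => by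
    simp only [refl_apply, polar_add_right, polar_smul_right, polar_self', smul_eq_mul, polar_comm Q b a]
    match_scalars <;> field_simp; ring
  generalize hD : 𝔟 a b ^ 2 - 4 * Q a * Q b = D at h2
  refine ⟨Q a * Q b / D, Q a * (2 * Q a * Q b - 𝔟 a b ^ 2) / (𝔟 a b * D), ?_⟩
  rw [commutatorElement_def, refl_inv, refl_inv, OG.mul_apply, OG.mul_apply, OG.mul_apply, e2, e1, e2, e1]
  match_scalars <;> field_simp <;> subst hD <;> ring

variable [FiniteDimensional F V] (g : Geo Q)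
include g

theorem Geo.hyp {k : ℕ} {e f : Fin k → V} (h : (ofQuad Q).IsHyp e f) {X : Submodule F V}
    (hX : ∀ x, x ∈ X ↔ (∀ i, 𝔟 (e i) x = 0) ∧ ∀ i, 𝔟 (f i) x = 0) :
    ((ofQuad Q).restrict X).Nondeg ∧ 2 * k + finrank F X = finrank F V ∧ ∃ x ∈ X, ∃ y ∈ X, 𝔟 x y = 1 := by
  obtain rfl : X = (ofQuad Q).perp _ := Submodule.ext fun x => (hX x).trans (ofQuad Q).mem_perp_span_elim.symm
  have h1 := g.nd.restrict_perp h.nondeg_span
  have h2 := g.nd.finrank_add_finrank_perp (Submodule.span F (Set.range (Sum.elim e f)))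
  have h3 := g.w _ h.totSing_left
  rw [h.finrank_span, Fintype.card_fin] at h2
  rw [finrank_span_eq_card h.linearIndependent_left, Fintype.card_fin] at h3
  obtain ⟨x, hx⟩ := finrank_pos_iff_exists_ne_zero.1 (Nat.pos_of_ne_zero fun e => by rw [e] at h2; omega)
  obtain ⟨y, hy⟩ := h1.exists_eq_one hx
  exact ⟨h1, h2, x, x.2, y, y.2, hy⟩

theorem Cf.perp (c : Cf Q e f v v' u u') : ((ofQuad Q).restrict (Pp Q [e, v, u, f, v', u'])).Nondeg ∧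
    2 * 3 + finrank F (Pp Q [e, v, u, f, v', u']) = finrank F V ∧
      ∃ x ∈ Pp Q [e, v, u, f, v', u'], ∃ y ∈ Pp Q [e, v, u, f, v', u'], 𝔟 x y = 1 :=
  g.hyp (e := ![e, v, u]) (f := ![f, v', u']) (by
    constructor <;> simp [Fin.forall_fin_succ, c.p1, c.p2, c.p3, c.o1, c.o2, c.o3]) (by simp [Fin.forall_fin_succ, and_assoc])

theorem Cf.kill (c : Cf Q e f v v' u u') {φ : V → E}
    (ha : ∀ x ∈ Pp Q [e, v, u], ∀ y ∈ Pp Q [e, v, u], φ (x + y) = φ x * φ y)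
    (hi : ∀ k ∈ commutator (OG Q), k.1 e = e → k.1 v = v → k.1 u = u → ∀ x ∈ Pp Q [e, v, u], φ (k.1 x) = φ x) :
    ∀ x ∈ Pp Q [e, v, u], φ x = 1 := fun x hx => by
  obtain ⟨n, d, x₀, h1, y₀, h2, h3⟩ := c.perp g
  obtain ⟨p1, p2, p3, o1, o2, o3⟩ := c
  have m : ∀ {y}, y ∈ Pp Q [e, v, u, f, v', u'] → y ∈ Pp Q [e, v, u] := fun h => by simp_all
  have hi' : ∀ z ∈ Pp Q [e, v, u], Q z = 0 → ∀ a ∈ Pp Q [e, v, u], 𝔟 z a = 0 → ∀ y ∈ Pp Q [e, v, u],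
      φ ((eich Q z a).1 y) = φ y := fun z hz h a ha h' => by
    simp only [mem_Pp_cons] at hz ha
    refine hi _ (eich_mem_commutator g.nd (notExc_of_finrank (by have := g.dim; omega)) z a) ?_ ?_ ?_ <;>
      simp [eich_apply h h', polar_comm Q a, polar_comm Q z, hz, ha]
  have k : ∀ z ∈ Pp Q [e, v, u], Q z = 0 → 𝔟 z x₀ = 0 → 𝔟 z y₀ = 0 → ∀ t : F, φ (t • z) = 1 := fun z hz h a b =>
    kill1 ha h hz (m h1) (m h2) a b h3 (hi' z hz h)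
  simp only [mem_Pp_cons] at h1 h2 hx
  obtain ⟨a, aX, r, s, t, rfl⟩ : ∃ a ∈ Pp Q [e, v, u, f, v', u'], ∃ r s t : F, x = a + r • e + s • v + t • u :=
    ⟨x - 𝔟 f x • e - 𝔟 v' x • v - 𝔟 u' x • u, by simp [hx, p1, p2, p3, o1, o2, o3], 𝔟 f x, 𝔟 v' x, 𝔟 u' x, by abel⟩
  have aX' := m aX
  have me : e ∈ Pp Q [e, v, u] ∧ v ∈ Pp Q [e, v, u] ∧ u ∈ Pp Q [e, v, u] := by simp [p1, p2, p3, o1, o2, o3]
  have sm := @Submodule.smul_mem _ _ _ _ _ (Pp Q [e, v, u])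
  rw [ha _ (add_mem (add_mem aX' (sm _ me.1)) (sm _ me.2.1)) _ (sm _ me.2.2), ha _ (add_mem aX' (sm _ me.1)) _ (sm _ me.2.1),
    ha _ aX' _ (sm _ me.1), k e me.1 p1.1 h1.1 h2.1, k v me.2.1 p2.1 h1.2.1 h2.2.1, k u me.2.2 p3.1 h1.2.2.1 h2.2.2.1,
    mul_one, mul_one, mul_one]
  by_cases s : ∃ z ∈ Pp Q [e, v, u, f, v', u'], z ≠ 0 ∧ Q z = 0
  · obtain ⟨z, zX, z0, hz⟩ := s
    obtain ⟨z', zX', p⟩ := exists_isPair_mem n zX z0 hz
    have p' : Pr Q z z' := by simp [Pr, polar_self', hz, p.Q_right, p.polar_eq, p.polar_eq']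
    have a1 := zX
    have a2 := zX'
    simp only [mem_Pp_cons] at a1 a2
    obtain ⟨-, -, x₁, b1, y₁, b2, b3⟩ := g.hyp (e := ![e, v, u, z]) (f := ![f, v', u', z'])
      (X := Pp Q [e, v, u, z, f, v', u', z']) (by
        have := And.intro a1 a2
        simp only [polar_comm Q _ z, polar_comm Q _ z'] at this
        constructor <;> simp [Fin.forall_fin_succ, p1, p2, p3, o1, o2, o3, a1, a2, p', this])
      (by simp [Fin.forall_fin_succ, and_assoc])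
    simp only [mem_Pp_cons] at b1 b2
    exact kill3 (x₀ := x₁) (y₀ := y₁) ⟨p', m zX, m zX', by simp [b1], by simp [b2], by simp [b1, b2, b3]⟩ ha (hi' z (m zX) hz)
      (hi' z' (m zX') p'.2.1) a aX'
  have an : ∀ z ∈ Pp Q [e, v, u, f, v', u'], Q z = 0 → z = 0 := fun z h h' => by_contra fun n => s ⟨z, h, n, h'⟩
  by_cases a0 : a = 0
  · simpa [a0] using ha 0 (zero_mem _) 0 (zero_mem _)
  obtain ⟨b, bX, b1, b2⟩ : ∃ b ∈ Pp Q [e, v, u, f, v', u'], b ∉ F ∙ a ∧ 𝔟 a b ≠ 0 := by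
    obtain ⟨c, cX, c1⟩ := SetLike.not_le_iff_exists.1 fun l : Pp Q [e, v, u, f, v', u'] ≤ F ∙ a => by
      have := (Submodule.finrank_mono l).trans (finrank_span_singleton a0).le
      have := g.dim
      omega
    obtain ⟨b, b1⟩ := n.exists_ne (x := ⟨a, aX⟩) (by simpa)
    by_cases c2 : 𝔟 a c = 0
    swap; · exact ⟨c, cX, c1, c2⟩
    by_cases b2 : b.1 ∈ F ∙ a
    · exact ⟨c + b, add_mem cX b.2, fun h => c1 ((Submodule.add_mem_iff_left _ b2).1 h), by simpa [c2] using b1⟩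
    exact ⟨b, b.2, b2, b1⟩
  have qa : Q a ≠ 0 := fun h => a0 (an a aX h)
  obtain ⟨s, t, e⟩ := refl_comm_apply qa (fun h => b1 (an b bX h ▸ zero_mem _)) b2 fun h => by
    have := an ((2 * Q a) • b - 𝔟 a b • a) (sub_mem (Submodule.smul_mem _ _ bX) (Submodule.smul_mem _ _ aX)) (by
      simp only [quad_sub, quad_smul, polar_smul_left, polar_smul_right, smul_eq_mul, polar_comm Q b a]
      linear_combination -Q a * h)
    by_cases h2 : 2 * Q a = 0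
    · simp [h2, b2, a0] at this
    exact b1 ((Submodule.smul_mem_iff _ h2).1 (sub_eq_zero.1 this ▸ Submodule.smul_mem _ _ (Submodule.mem_span_singleton_self a)))
  have mm := add_mem (Submodule.smul_mem _ s aX') (Submodule.smul_mem _ t (m bX))
  simp only [mem_Pp_cons] at aX bX
  have := hi _ (Subgroup.commutator_mem_commutator (Subgroup.mem_top (refl Q a)) (Subgroup.mem_top (refl Q b))) ?_ ?_ ?_ _ mm
  · simpa [e, ha _ mm _ aX'] using this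
  all_goals simp [commutatorElement_def, OG.mul_apply, refl_of_perp, polar_comm Q a, polar_comm Q b, aX, bX]

end Cfsg.Agent.Pres
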