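import Cfsg.Agent.Pres.OmM1

/-! Central extensions of orthogonal groups: commutators of lifts of Eichler transformations (`Lf.abel`, `Lf.compl`). -/

set_option autoImplicit false

namespace Cfsg.Agent.Pres

open Module Geom Geom.Formed QuadraticMap Subgroup
open scoped commutatorElement

variable {F : Type*} [Field F] {V : Type*} [AddCommGroup V] [Module F V] {Q : QuadraticForm F V} {E : Type*} [Group E]

local notation "𝔟" => polar Q

/-- A central extension of a group containing `Ω`, with lifts of the Eichler transformations. -/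
structure Lf (τ : E →* OG Q) (T : V → V → E) : Prop where
  cent : τ.ker ≤ center E
  sur : ∀ g ∈ commutator (OG Q), ∃ k, τ k = g
  eq : ∀ e a, τ (T e a) = eich Q e a

theorem eich_fix {p a x : V} (hp : Q p = 0) (ha : 𝔟 p a = 0) (h : 𝔟 p x = 0) (h' : 𝔟 a x = 0) :
    (eich Q p a).1 x = x := by simp [eich_apply hp ha, h, h']

theorem eich_flip {e v : V} (he : Q e = 0) (hv : Q v = 0) (h : 𝔟 v e = 0) (t : F) :
    eich Q e (t • v) = eich Q v (-t • e) := by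
  rw [← eich_smul_left he (polar_comm Q v e ▸ h), eich_swap hv (by simp [quad_smul, he]) (by simp [h]), neg_smul]

namespace Lf

variable {τ : E →* OG Q} {T : V → V → E} (h : Lf τ T) {x x' y y' k m : E} {e f v v' u u' a b w : V}
include h

theorem cen (hx : τ x = 1) (k : E) : Commute k x := mem_center_iff.1 (h.cent hx) k

theorem cong (hx : τ x = τ x') (hy : τ y = τ y') : ⁅x, y⁆ = ⁅x', y'⁆ := by
  have a := h.cen (x := x'⁻¹ * x) (by simp [hx])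
  have b := h.cen (x := y'⁻¹ * y) (by simp [hy])
  rw [← mul_inv_cancel_left x' x, ← mul_inv_cancel_left y' y, commutatorElement_mul_left_eq_conj_mul,
    commutatorElement_mul_right_eq_mul_conj x', commutatorElement_eq_one_iff_commute.2 (a _).symm,
    commutatorElement_eq_one_iff_commute.2 (b _)]
  simp

theorem cL (hx : τ x = τ x' * τ k) (c : Commute x' ⁅k, y⁆) : ⁅x, y⁆ = ⁅k, y⁆ * ⁅x', y⁆ := by
  rw [h.cong (hx.trans (map_mul ..).symm) rfl, commutatorElement_mul_left_eq_conj_mul, c.mul_inv_cancel]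

theorem cR (hy : τ y = τ y' * τ k) (c : Commute y' ⁅x, k⁆) : ⁅x, y⁆ = ⁅x, y'⁆ * ⁅x, k⁆ := by
  rw [h.cong rfl (hy.trans (map_mul ..).symm), commutatorElement_mul_right_eq_mul_conj, mul_assoc, mul_assoc,
    ← mul_assoc y', c.mul_inv_cancel]

theorem cj (k : E) (e a f b : V) : k * ⁅T e a, T f b⁆ * k⁻¹ =
    ⁅T ((τ k).1 e) ((τ k).1 a), T ((τ k).1 f) ((τ k).1 b)⁆ := by
  rw [conjugate_commutatorElement]
  exact h.cong (by simp [h.eq, conj_eich]) (by simp [h.eq, conj_eich])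

theorem tc (he : Q e = 0) (hk : (τ k).1 e = e) (hw : 𝔟 e w = 0) (hm : τ m = eich Q e w) :
    τ ⁅k, m⁆ = eich Q e ((τ k).1 w - w) := by
  rw [map_commutatorElement, commutatorElement_def, hm, conj_eich, hk,
    eich_sub he (by rw [← hw, ← OG.map_polar (τ k) e w, hk]) hw]

variable [FiniteDimensional F V] (g : Geo Q) (c : Cf Q e f v v' u u')
include c

omit [FiniteDimensional F V] in
theorem beta : ∀ a ∈ Pp Q [e], ∀ b ∈ Pp Q [e], ⁅T e a, T e b⁆ = ⁅T e v', T e (𝔟 a b • v)⁆ := by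
  obtain ⟨p1, p2, p3, o1, o2, o3⟩ := c
  have z : ∀ a ∈ Pp Q [e], ∀ b ∈ Pp Q [e], ∀ k, Commute k ⁅T e a, T e b⁆ := fun a ha b hb => h.cen (by
    rw [map_commutatorElement, h.eq, h.eq, commutatorElement_eq_one_iff_mul_comm,
      eich_comm p1.1 (ha _ (by simp)) (hb _ (by simp))])
  have i : ∀ z, Q z = 0 → 𝔟 z e = 0 → ∀ a ∈ Pp Q [e], 𝔟 z a = 0 → ∀ x ∈ Pp Q [e], ∀ w ∈ Pp Q [e],
      ⁅T e ((eich Q z a).1 x), T e ((eich Q z a).1 w)⁆ = ⁅T e x, T e w⁆ := fun y q1 q2 a ha q3 x hx w hw => by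
    have := h.cj (T y a) e x e w
    rw [h.eq, eich_fix q1 q3 q2 (by simpa [polar_comm Q a] using ha), (z x hx w hw _).mul_inv_cancel] at this
    exact this.symm
  exact bil (θ := fun a b => ⁅T e a, T e b⁆) (x₀ := u) (y₀ := u') ⟨p2, by simp [o1], by simp [o1], by simp [o2],
    by simp [o2], by simp [o3, p3]⟩ (fun x hx a ha b hb => h.cR (by
      simp only [h.eq, eich_add p1.1 (ha _ (by simp)) (hb _ (by simp))]) (z x hx b hb _))
    (fun a ha b hb x hx => (h.cL (by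
      simp only [h.eq, eich_add p1.1 (ha _ (by simp)) (hb _ (by simp))]) (z b hb x hx _)).trans (z b hb x hx _).symm.eq)
    (i v p2.1 (by simp [o1])) (i v' p2.2.1 (by simp [o1]))

omit [FiniteDimensional F V] in
theorem weak (hx : τ x = eich Q e a) (hy : τ y = eich Q e b) (ha : 𝔟 e a = 0) (hb : 𝔟 e b = 0) (hab : 𝔟 a b = 0) :
    Commute x y := by
  rw [← commutatorElement_eq_one_iff_commute, h.cong (hx.trans (h.eq ..).symm) (hy.trans (h.eq ..).symm),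
    h.beta c a (by simpa) b (by simpa), hab, zero_smul]
  exact commutatorElement_eq_one_iff_commute.2 (h.cen (by simp [h.eq]) _)

omit [FiniteDimensional F V] in
theorem tg (ha : a ∈ Pp Q [e, v]) (hb : b ∈ Pp Q [e, v]) : τ ⁅T v a, T e b⁆ = eich Q e (𝔟 a b • v) := by
  simp only [mem_Pp_cons] at ha hb
  rw [h.tc c.p1.1 (by rw [h.eq, eich_fix c.p2.1 ha.2.1 c.o1.2.1 (polar_comm Q e a ▸ ha.1)]) hb.1 (h.eq ..), h.eq,
    eich_apply_of_perp c.p2.1 ha.2.1 hb.2.1, add_sub_cancel_left]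

include g

theorem dk {t : F} (hm : τ m = eich Q e (t • v)) : ∀ a ∈ Pp Q [e, v, u], ⁅T u a, m⁆ = 1 := by
  have z : ∀ a ∈ Pp Q [e, v, u], ∀ k, Commute k ⁅T u a, m⁆ := fun a ha => h.cen (by
    simp only [mem_Pp_cons, polar_comm Q _ a] at ha
    have := polar_comm Q a u ▸ ha.2.2.1
    rw [h.tc c.p1.1 (by rw [h.eq, eich_fix c.p3.1 this c.o2.2.1 ha.1]) (by simp [c.o1]) hm, h.eq,
      eich_fix c.p3.1 this (by simp [c.o3]) (by simp [ha]), sub_self, eich_zero_right])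
  refine c.kill g (φ := fun a => ⁅T u a, m⁆) (fun a ha b hb => (h.cL (by
    simp only [h.eq, eich_add c.p3.1 (ha _ (by simp)) (hb _ (by simp))]) (z b hb _)).trans (z b hb _).symm.eq)
    fun k hk h1 h2 h3 a ha => ?_
  obtain ⟨k, rfl⟩ := h.sur k hk
  have := h.cj k u a e (t • v)
  rw [h.cong rfl ((h.eq ..).trans hm.symm), (z a ha _).mul_inv_cancel, h1, h3, map_smul, h2] at this
  exact (this.trans (h.cong rfl ((h.eq ..).trans hm.symm))).symm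

theorem gam : ∀ a ∈ Pp Q [e, v], ∀ b ∈ Pp Q [e, v], ⁅T v a, T e b⁆ = ⁅T v u', T e (𝔟 a b • u)⁆ := by
  have i : ∀ {u u'}, Cf Q e f v v' u u' → ∀ a ∈ Pp Q [e, v], 𝔟 u a = 0 → ∀ x ∈ Pp Q [e, v], ∀ w ∈ Pp Q [e, v],
      ⁅T v ((eich Q u a).1 x), T e ((eich Q u a).1 w)⁆ = ⁅T v x, T e w⁆ := fun {u u'} c a ha q x hx w hw => by
    have := h.cj (T u a) v x e w
    rw [(commutatorElement_eq_one_iff_commute.1 (h.dk g c (h.tg c hx hw) a (by simp_all))).mul_inv_cancel] at this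
    simp only [mem_Pp_cons, polar_comm Q _ a] at ha
    rw [this, h.eq, eich_fix c.p3.1 q c.o2.2.1 ha.1, eich_fix c.p3.1 q c.o3.2.1 ha.2.1]
  obtain ⟨-, -, x₀, h1, y₀, h2, h3⟩ := c.perp g
  simp only [mem_Pp_cons] at h1 h2
  exact bil (θ := fun a b => ⁅T v a, T e b⁆) (x₀ := x₀) (y₀ := y₀) ⟨c.p3, by simp [c.o2, c.o3], by simp [c.o2, c.o3],
    by simp [h1], by simp [h2], by simp [h1, h2, h3]⟩ (fun x hx a ha b hb => h.cR (by
      simp only [h.eq, eich_add c.p1.1 (ha _ (by simp)) (hb _ (by simp))]) (h.weak c (h.eq ..) (h.tg c hx hb)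
        (ha _ (by simp)) (by simp [c.o1]) (by simp [polar_comm Q a, ha v])))
    (fun a ha b hb x hx => h.cL (by
      simp only [h.eq, add_comm a, eich_add c.p2.1 (hb _ (by simp)) (ha _ (by simp))]) (h.weak c.s12 (h.eq ..)
        ((h.tg c ha hx).trans (eich_flip c.p1.1 c.p2.1 c.o1.2.1 _)) (hb _ (by simp)) (by simp [c.o1])
        (by simp [polar_comm Q b, hb e]))) (i c) (i c.s3)

theorem fixL {t : F} (h1 : (τ k).1 e = e) (h2 : (τ k).1 v = v) (hm : τ m = eich Q e (t • v)) : ⁅k, m⁆ = 1 := by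
  have m1 : u' ∈ Pp Q [e, v] := by simp [c.o2, c.o3]
  have m2 : t • u ∈ Pp Q [e, v] := by simp [c.o2, c.o3]
  have m3 : ∀ x ∈ Pp Q [e, v], (τ k).1 x ∈ Pp Q [e, v] := fun x hx => by
    simp only [mem_Pp_cons] at hx ⊢
    rw [← h1, ← h2, OG.map_polar, OG.map_polar]; simp [hx]
  rw [h.cong (y' := ⁅T v u', T e (t • u)⁆) rfl (by rw [hm, h.tg c m1 m2]; simp [c.p3]), commutatorElement_def, h.cj, h1, h2,
    h.gam g c _ (m3 _ m1) _ (m3 _ m2), OG.map_polar, ← h.gam g c _ m1 _ m2, mul_inv_cancel]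

theorem yadd (ha : a ∈ Pp Q [e, v]) (hb : b ∈ Pp Q [e, v]) (hw : 𝔟 e w = 0) : ⁅T v (a + b), T e w⁆ =
    ⁅T v u', T e ((-𝔟 v w * 𝔟 a b) • u)⁆ * (⁅T v b, T e w⁆ * ⁅T v a, T e w⁆) ∧
      τ ⁅T v b, T e w⁆ = eich Q e ((𝔟 b w - Q b * 𝔟 v w) • v - 𝔟 v w • b) := by
  have hb' := hb
  have ha' := ha
  simp only [mem_Pp_cons] at ha' hb'
  have e1 : τ ⁅T v b, T e w⁆ = eich Q e ((𝔟 b w - Q b * 𝔟 v w) • v - 𝔟 v w • b) := by
    rw [h.tc c.p1.1 (by rw [h.eq, eich_fix c.p2.1 hb'.2.1 c.o1.2.1 (polar_comm Q e b ▸ hb'.1)]) hw (h.eq ..), h.eq,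
      eich_apply c.p2.1 hb'.2.1]
    congr 1; abel
  refine ⟨?_, e1⟩
  have := h.gam g c a ha ((𝔟 b w - Q b * 𝔟 v w) • v - 𝔟 v w • b) (by simp [hb', c.p2, c.o1])
  rw [← h.cong rfl (e1.trans (h.eq ..).symm), commutatorElement_def, mul_inv_eq_iff_eq_mul] at this
  rw [h.cong (x' := T v a * T v b) (by simp only [map_mul, h.eq, eich_add c.p2.1 ha'.2.1 hb'.2.1]) rfl,
    commutatorElement_mul_left_eq_conj_mul, this, mul_assoc]
  simp [polar_comm Q a v, ha']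

theorem abel (hx : τ x = eich Q e a) (hy : τ y = eich Q e b) (ha : 𝔟 e a = 0) (hb : 𝔟 e b = 0) : Commute x y := by
  have m1 : u' ∈ Pp Q [e, v] := by simp [c.o2, c.o3]
  have m2 : 𝔟 a b • u ∈ Pp Q [e, v] := by simp [c.o2, c.o3]
  obtain ⟨e1, e2⟩ := h.yadd g c m1 m2 c.o1.1.2.1
  obtain ⟨e3, e4⟩ := h.yadd g c m2 m1 c.o1.1.2.1
  rw [add_comm, e1, polar_comm Q u', mul_right_inj, ← commutatorElement_eq_one_iff_mul_comm,
    h.cong (e2.trans (h.eq ..).symm) (e4.trans (h.eq ..).symm), h.beta c _ (by simp [c.o1, c.o2]) _ (by simp [c.o1, c.o2])] at e3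
  rw [← commutatorElement_eq_one_iff_commute, h.cong (hx.trans (h.eq ..).symm) (hy.trans (h.eq ..).symm),
    h.beta c a (by simpa) b (by simpa), ← e3]
  simp [c.p2, c.p3, c.o3]

theorem compl : ∃ D : Subgroup E, (∀ d ∈ D, τ d = 1 → d = 1) ∧ ∀ k m w, (τ k).1 e = e →
    (τ k).1 v = v → 𝔟 e w = 0 → τ m = eich Q e w → ⁅k, m⁆ ∈ D := by
  have ab := fun x y a b => @abel _ _ _ _ _ _ _ _ _ _ h x y _ _ _ _ _ _ a b _ g c
  obtain ⟨ψ, hψ⟩ : ∃ ψ : F → E, ∀ t, ψ t = ⁅T v u', T e (t • u)⁆ := ⟨_, fun _ => rfl⟩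
  have m1 : u' ∈ Pp Q [e, v] := by simp [c.o2, c.o3]
  have m2 : ∀ t : F, t • u ∈ Pp Q [e, v] := by simp [c.o2, c.o3]
  have mv : ∀ t : F, t • v ∈ Pp Q [e, v] := by simp [c.o1, c.p2]
  have ψ1 : ∀ t, τ (ψ t) = eich Q e (t • v) := fun t => by rw [hψ, h.tg c m1 (m2 t)]; simp [c.p3]
  have ψ2 : ∀ s t, ψ (s + t) = ψ s * ψ t := fun s t => by
    rw [hψ, hψ, hψ]
    exact h.cR (by simp only [h.eq, add_smul, eich_add c.p1.1 (m2 s _ (by simp)) (m2 t _ (by simp))])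
      (ab _ _ _ _ (h.eq ..) (h.tg c m1 (m2 t)) (m2 s _ (by simp)) (by simp [c.o1]))
  obtain ⟨σ, hσ⟩ : ∃ σ : F → V → E, ∀ l a, σ l a = ⁅T v (-a), T e (l • v')⁆ * ψ (l * (Q a + 𝔟 a v')) := ⟨_, fun _ _ => rfl⟩
  have w1 : ∀ l : F, 𝔟 e (l • v') = 0 := by simp [c.o1]
  have y1 := fun l a ha => (h.yadd g c ha (a := a) ha (w1 l)).2
  have y2 : ∀ l : F, ∀ a ∈ Pp Q [e, v], 𝔟 e ((𝔟 a (l • v') - Q a * 𝔟 v (l • v')) • v - 𝔟 v (l • v') • a) = 0 :=
    fun l a ha => by simp [c.o1, ha e]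
  have σ1 : ∀ l, ∀ a ∈ Pp Q [e, v], τ (σ l a) = eich Q e (l • a) := fun l a ha => by
    rw [hσ, map_mul, y1 l _ (neg_mem ha), ψ1, ← eich_add c.p1.1 (y2 _ _ (neg_mem ha)) (mv _ _ (by simp))]
    congr 1
    simp only [c.p2, polar_smul_right, polar_neg_left, QuadraticMap.map_neg, smul_eq_mul]
    module
  have σ2 : ∀ l, ∀ a ∈ Pp Q [e, v], ∀ b ∈ Pp Q [e, v], σ l (a + b) = σ l a * σ l b := fun l a ha b hb => by
    rw [hσ, hσ, hσ, neg_add_rev, (h.yadd g c (neg_mem hb) (neg_mem ha) (w1 l)).1, ← hψ,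
      (ab _ _ _ _ (ψ1 _) ((map_mul ..).trans (by
        rw [y1 l _ (neg_mem ha), y1 l _ (neg_mem hb), ← eich_add c.p1.1 (y2 _ _ (neg_mem ha)) (y2 _ _ (neg_mem hb))]))
        (mv _ _ (by simp)) (by rw [polar_add_right, y2 _ _ (neg_mem ha), y2 _ _ (neg_mem hb), add_zero])).eq,
      mul_assoc, ← ψ2, mul_assoc, mul_assoc, ← mul_assoc (ψ _),
      (ab _ _ _ _ (ψ1 _) (y1 l _ (neg_mem hb)) (mv _ _ (by simp)) (y2 _ _ (neg_mem hb))).eq, mul_assoc, ← ψ2]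
    congr 3
    simp [c.p2, quad_add, polar_comm Q b a]
    ring
  have σ0 : ∀ l, σ l 0 = 1 := fun l => by simpa using σ2 l 0 (zero_mem _) 0 (zero_mem _)
  have σ3 : ∀ t : F, σ 1 (t • v) = ψ t := fun t => by
    rw [hσ, commutatorElement_eq_one_iff_commute.2 (h.cen (by rw [h.eq, ← neg_smul, eich_smul_self c.p2.1]) _).symm]
    simp [quad_smul, c.p2]
  have σ4 : ∀ l k, (τ k).1 e = e → (τ k).1 v = v → (τ k).1 v' = v' → ∀ a, k * σ l a * k⁻¹ = σ l ((τ k).1 a) :=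
    fun l k h1 h2 h3 a => by
      rw [hσ, hσ, conj_mul.symm, (commutatorElement_eq_one_iff_commute.1 (h.fixL g c h1 h2 (ψ1 _))).mul_inv_cancel,
        h.cj, h1, h2, map_smul, h3, map_neg, OG.map_Q, ← OG.map_polar (τ k) a, h3]
  let D : Subgroup E :=
    { carrier := {d | ∃ a ∈ Pp Q [e, v], d = σ 1 a}
      one_mem' := ⟨0, zero_mem _, (σ0 1).symm⟩
      mul_mem' := by rintro _ _ ⟨a, ha, rfl⟩ ⟨b, hb, rfl⟩; exact ⟨_, add_mem ha hb, (σ2 1 a ha b hb).symm⟩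
      inv_mem' := by
        rintro _ ⟨a, ha, rfl⟩
        exact ⟨_, neg_mem ha, inv_eq_of_mul_eq_one_right (by rw [← σ2 1 a ha _ (neg_mem ha), add_neg_cancel, σ0])⟩ }
  have ψD : ∀ t, ψ t ∈ D := fun t => ⟨_, mv t, (σ3 t).symm⟩
  have σD : ∀ l, ∀ a ∈ Pp Q [e, v, v'], σ l a ∈ D := fun l a ha => by
    have n : ∀ {a}, a ∈ Pp Q [e, v, v'] → a ∈ Pp Q [e, v] := fun h => by simp_all
    have z : ∀ a ∈ Pp Q [e, v, v'], ∀ k, Commute k ((σ 1 (l • a))⁻¹ * σ l a) := fun a ha => h.cen (by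
      simp [σ1 _ _ (n ha), σ1 _ _ (Submodule.smul_mem _ l (n ha))])
    have i : ∀ {u u'}, Cf Q e f v v' u u' → ∀ a ∈ Pp Q [e, v, v'], 𝔟 u a = 0 → ∀ y ∈ Pp Q [e, v, v'],
        (σ 1 (l • (eich Q u a).1 y))⁻¹ * σ l ((eich Q u a).1 y) = (σ 1 (l • y))⁻¹ * σ l y := fun {u u'} c a ha q y hy => by
      simp only [mem_Pp_cons, polar_comm Q _ a] at ha
      have := fun l => σ4 l (T u a) (by rw [h.eq, eich_fix c.p3.1 q c.o2.2.1 ha.1])
        (by rw [h.eq, eich_fix c.p3.1 q c.o3.2.1 ha.2.1]) (by rw [h.eq, eich_fix c.p3.1 q c.o3.2.2.2.1 ha.2.2.1])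
      rw [← map_smul, ← h.eq, ← this, ← this, ← (z y hy (T u a)).mul_inv_cancel]
      group
    obtain ⟨-, -, x₀, h1, y₀, h2, h3⟩ := c.perp g
    simp only [mem_Pp_cons] at h1 h2
    have := kill3 (φ := fun a => (σ 1 (l • a))⁻¹ * σ l a) (x₀ := x₀) (y₀ := y₀) ⟨c.p3, by simp [c.o2, c.o3],
      by simp [c.o2, c.o3], by simp [h1], by simp [h2], by simp [h1, h2, h3]⟩ (fun a ha b hb => by
        rw [smul_add, σ2 _ _ (Submodule.smul_mem _ l (n ha)) _ (Submodule.smul_mem _ l (n hb)), σ2 _ _ (n ha) _ (n hb),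
          ← (z a ha _).eq, mul_assoc, (z a ha _).eq]
        group) (i c) (i c.s3) a ha
    exact ⟨_, Submodule.smul_mem _ l (n ha), (inv_mul_eq_one.1 this).symm⟩
  refine ⟨D, ?_, ?_⟩
  · rintro _ ⟨a, ha, rfl⟩ e1
    have e2 := congrArg (·.1 f) ((σ1 1 a ha).symm.trans e1)
    simp only [one_smul, eich_apply c.p1.1 (ha _ (by simp)), c.p1, add_sub_assoc] at e2
    obtain ⟨t, rfl⟩ : ∃ t : F, a = t • e := ⟨_, (sub_eq_zero.1 (add_eq_left.1 e2)).symm⟩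
    rw [hσ, commutatorElement_eq_one_iff_commute.2 (ab _ _ (t • v) _ (by
      rw [h.eq, ← neg_smul, eich_flip c.p1.1 c.p2.1 c.o1.2.1]) (h.eq ..) (by simp [c.o1]) (w1 1))]
    simpa [quad_smul, c.p1, c.o1] using (σ3 0).symm.trans (by simp [σ0])
  have red : ∀ k, (τ k).1 e = e → (∀ a ∈ Pp Q [e, v], ⁅k, T e a⁆ ∈ D) → (∀ l : F, ⁅k, T e (l • v')⁆ ∈ D) →
      ∀ m w, 𝔟 e w = 0 → τ m = eich Q e w → ⁅k, m⁆ ∈ D := fun k h1 h2 h3 m w hw hm => by
    have n : w - 𝔟 v w • v' ∈ Pp Q [e, v] := by simp [hw, c.o1, c.p2]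
    rw [h.cR (y' := T e (w - 𝔟 v w • v')) (k := T e (𝔟 v w • v')) (by
      rw [hm, h.eq, h.eq, ← eich_add c.p1.1 (n _ (by simp)) (w1 _), sub_add_cancel]) (ab _ _ _ _ (h.eq ..)
        (h.tc c.p1.1 h1 (w1 _) (h.eq ..)) (n _ (by simp)) (by
          rw [polar_sub_right, w1, ← h1, OG.map_polar, w1, sub_zero]))]
    exact mul_mem (h2 _ n) (h3 _)
  intro k m w h1 h2 hw hm
  obtain ⟨b, hb, h3⟩ : ∃ b ∈ Pp Q [e, v, v'], (eich Q v b).1 v' = (τ k).1 v' := by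
    have q1 : 𝔟 e ((τ k).1 v') = 0 := by rw [← h1, OG.map_polar, c.o1.1.2.1]
    have q2 : 𝔟 v ((τ k).1 v') = 1 := by rw [← h2, OG.map_polar, c.p2.2.2.2.2.1]
    have q3 : 𝔟 v (v' - (τ k).1 v') = 0 := by simp [q2, c.p2]
    refine ⟨v' - (τ k).1 v' + 𝔟 v' ((τ k).1 v') • v, by simp [q1, q2, c.p2, c.o1], ?_⟩
    rw [eich_add_smul c.p2.1 q3, eich_apply c.p2.1 q3]
    simp [quad_sub, c.p2, OG.map_Q, polar_comm Q v']
  have hb' := hb
  simp only [mem_Pp_cons] at hb'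
  have f1 : (τ (T v b)).1 e = e := by rw [h.eq, eich_fix c.p2.1 hb'.2.1 c.o1.2.1 (polar_comm Q e b ▸ hb'.1)]
  have f2 : (τ (T v b)).1 v = v := by rw [h.eq, eich_apply_self c.p2.1 hb'.2.1]
  obtain ⟨l, rfl⟩ : ∃ l, k = T v b * l := ⟨_, (mul_inv_cancel_left _ k).symm⟩
  have i : ∀ {x y}, (τ (T v b * l)).1 x = (τ (T v b)).1 y → (τ l).1 x = y := fun e => (τ (T v b)).1.injective (by
    rwa [map_mul] at e)
  have l1 := i (h1.trans f1.symm)
  have l2 := i (h2.trans f2.symm)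
  have l3 := i (h3.symm.trans (by rw [h.eq]))
  have r1 := red _ f1 (fun a ha => h.gam g c b (by simp [hb']) a ha ▸ hψ _ ▸ ψD _) fun l => by
    have := σD l (-b) (neg_mem hb)
    rwa [hσ, neg_neg, D.mul_mem_cancel_right (ψD _)] at this
  have r2 := red l l1 (fun a ha => by
    rw [h.cong rfl ((h.eq ..).trans ((σ1 1 a ha).trans (by rw [one_smul])).symm), commutatorElement_def, σ4 1 l l1 l2 l3]
    refine mul_mem ⟨_, ?_, rfl⟩ (inv_mem ⟨a, ha, rfl⟩)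
    simp only [mem_Pp_cons] at ha ⊢
    rw [← l1, ← l2, OG.map_polar, OG.map_polar]; simp [ha]) (fun t => h.fixL g c.s2 l1 l3 (h.eq ..) ▸ one_mem _) m w hw hm
  simpa [commutatorElement_def, mul_assoc] using mul_mem (mul_mem (r1 _ _ (by
    rw [polar_sub_right, hw, ← l1, OG.map_polar, hw, sub_zero]) (h.tc c.p1.1 l1 hw hm)) r2) (r1 m w hw hm)

end Lf

end Cfsg.Agent.Pres
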