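import Cfsg.Agent.Pres.OmM2
import Cfsg.Agent.BG.Base1
import Cfsg.Agent.TwM.Root
import Cfsg.Agent.Classical.SL2Unip

/-! The characteristic does not divide the order of the Schur multiplier of `Ω⁻(2 l, q)`, `l ≥ 4` (`p_part`). -/

set_option autoImplicit false

namespace Cfsg.Agent.Pres

open Module Geom Geom.Formed QuadraticMap Subgroup BG
open scoped commutatorElement

variable {F : Type*} [Field F] {V : Type*} [AddCommGroup V] [Module F V] {Q : QuadraticForm F V} {E : Type*} [Group E]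

local notation "𝔟" => polar Q

theorem eich_inj {e f a : V} (p : Pr Q e f) (h : 𝔟 e a = 0) (h' : 𝔟 f a = 0) (h1 : (eich Q e a).1 f = f) : a = 0 := by
  simp only [eich_apply p.1 h, p, add_sub_assoc, add_eq_left, sub_eq_zero, one_smul] at h1
  rw [← h1] at h' ⊢
  simp_all

theorem cf_of {m : ℕ} {e f : Fin m → V} (H : (ofQuad Q).IsHyp e f) {i j l : Fin m} (h1 : i ≠ j) (h2 : i ≠ l)
    (h3 : j ≠ l) : Cf Q (e i) (f i) (e j) (f j) (e l) (f l) := by
  have a1 : ∀ i j, 𝔟 (e i) (e j) = 0 := H.ee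
  have a2 : ∀ i j, 𝔟 (f i) (f j) = 0 := H.ff
  have a3 : ∀ i j, 𝔟 (e i) (f j) = if i = j then 1 else 0 := H.ef
  have a4 : ∀ i j, 𝔟 (f j) (e i) = if i = j then 1 else 0 := fun i j => polar_comm Q _ _ ▸ a3 i j
  have a5 : ∀ i, Q (e i) = 0 := H.Qe
  have a6 : ∀ i, Q (f i) = 0 := H.Qf
  constructor <;> simp [Pr, Ot, h1.symm, h2.symm, h3.symm, *]

variable [FiniteDimensional F V] [Finite F] {τ : E →* OG Q} {m : ℕ}

theorem chain {T : V → V → E} (h : Lf τ T) (g : Geo Q) (hm : 3 ≤ m) {e f : Fin m → V} (H : (ofQuad Q).IsHyp e f)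
    (hd : finrank F V = 2 * m + 2) (k : ℕ) (hk : k ≤ m) : ∃ S ≤ τ.range, Nat.card S = Nat.card F ^ ((k + 1) * k) ∧
      (∀ s ∈ S, ∀ i : Fin m, (k ≤ i + 1 → s.1 (e i) = e i) ∧ (k ≤ i → s.1 (f i) = f i)) ∧
      ∀ a ∈ ⁅S.comap τ, S.comap τ⁆, τ a = 1 → a = 1 := by
  induction k with
  | zero => exact ⟨⊥, bot_le, by simp, by simp, fun a ha _ => (commutator_le.2 fun x hx y _ =>
      (commutatorElement_eq_one_iff_commute.2 (h.cen hx y).symm).symm ▸ one_mem _ : _ ≤ ⊥) ha⟩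
  | succ k ih =>
    obtain ⟨S, s1, s2, s3, s4⟩ := ih (by omega)
    have := Module.finite_of_finite F (M := V)
    haveI : Finite (OG Q) := .of_injective (fun g : OG Q => (g.1 : V → V)) fun _ _ e => OG.ext (congrFun e)
    obtain ⟨j, l, a1, a2, a3⟩ : ∃ j l, j < m ∧ l < m ∧ k ≠ j ∧ k ≠ l ∧ j ≠ l ∧ k ≤ j + 1 := by
      obtain e | e | e : k = 0 ∨ k = 1 ∨ 2 ≤ k := by omega
      exacts [⟨1, 2, by omega⟩, ⟨0, 2, by omega⟩, ⟨k - 1, 0, by omega⟩]
    have c := cf_of H (i := ⟨k, hk⟩) (j := ⟨j, a1⟩) (l := ⟨l, a2⟩) (by simp [a3]) (by simp [a3]) (by simp [a3])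
    obtain ⟨X, hX, hc⟩ : ∃ X : Submodule F V, (∀ x, x ∈ X ↔ ∀ i : Fin m, k ≤ i → 𝔟 (e i) x = 0 ∧ 𝔟 (f i) x = 0) ∧
        finrank F X = 2 * k + 2 := by
      have := (g.hyp (e := fun i : Fin (m - k) => e ⟨k + i, by omega⟩) (f := fun i => f ⟨k + i, by omega⟩)
        ⟨fun _ _ => H.ee .., fun _ _ => H.ff .., fun i j => (H.ef ..).trans (by simp [Fin.ext_iff]), fun _ => H.Qe _, fun _ => H.Qf _⟩
        fun _ => (ofQuad Q).mem_perp_span_elim).2.1
      refine ⟨_, fun x => (ofQuad Q).mem_perp_span_elim.trans ⟨fun a i hi => ?_, fun a =>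
        ⟨fun i => (a _ (by simp)).1, fun i => (a _ (by simp)).2⟩⟩, (by omega : ∀ n, 2 * (m - k) + n = _ → n = _) _ this⟩
      simpa [hi] using And.intro (a.1 ⟨i - k, by omega⟩) (a.2 ⟨i - k, by omega⟩)
    have x1 : ∀ x : X, 𝔟 (e ⟨k, hk⟩) x = 0 := fun x => ((hX x).1 x.2 _ le_rfl).1
    let μ : Multiplicative X →* OG Q := .mk' (fun a => eich Q (e ⟨k, hk⟩) a.toAdd) fun a b => eich_add c.p1.1 (x1 _) (x1 _)
    have μ1 : ∀ a, (μ a).1 (f ⟨k, hk⟩) = f ⟨k, hk⟩ → a = 1 := fun a e =>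
      Subtype.ext (eich_inj c.p1 (x1 _) ((hX _).1 a.toAdd.2 _ le_rfl).2 e)
    have ti : ∀ x ∈ S, x ∈ μ.range → x = 1 := by
      rintro _ hx ⟨a, rfl⟩; rw [μ1 a ((s3 _ hx _).2 le_rfl), map_one]
    have n : S ≤ N[μ.range] := fun s hs => mem_normalizer_fintype (by
      rintro _ ⟨a, rfl⟩
      refine ⟨.ofAdd ⟨s.1 a.toAdd, (hX _).2 fun i hi => ?_⟩, ((conj_eich ..).trans (by rw [(s3 s hs _).1 (by simp)]; rfl)).symm⟩
      rw [← (s3 s hs i).1 (by omega), ← (s3 s hs i).2 hi, OG.map_polar, OG.map_polar]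
      exact (hX _).1 a.toAdd.2 i hi)
    have r : μ.range ≤ τ.range := by rintro _ ⟨a, rfl⟩; exact ⟨_, h.eq ..⟩
    refine ⟨S ⊔ μ.range, sup_le s1 r, ?_, fun s hs i => ?_, fun a ha e1 => ?_⟩
    · rw [card_sup_TI (.inl n) (eq_bot_iff.2 fun x hx => ti x hx.1 hx.2), s2, ← Nat.card_congr (MonoidHom.ofInjective
        ((injective_iff_map_eq_one μ).2 fun a e => μ1 a (by rw [e]; rfl))).toEquiv, Nat.card_congr Multiplicative.toAdd,
        Module.natCard_eq_pow_finrank (K := F) (V := X), hc]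
      ring
    · obtain ⟨s, hs', _, ⟨a, rfl⟩, rfl⟩ := (mem_sup_normr n).1 hs
      have := (hX _).1 a.toAdd.2 i
      refine ⟨fun hi => ?_, fun hi => ?_⟩ <;> refine (congrArg s.1 (eich_fix c.p1.1 (x1 _) ?_ ?_)).trans ?_
      exacts [H.ee .., polar_comm Q _ _ ▸ (this (by omega)).1, (s3 s hs' i).1 (by omega),
        (H.ef ..).trans (if_neg (by simp [Fin.ext_iff]; omega)), polar_comm Q _ _ ▸ (this (by omega)).2, (s3 s hs' i).2 (by omega)]
    obtain ⟨D, d1, d2⟩ := h.compl g c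
    have n' : S.comap τ ≤ N[μ.range.comap τ] := (comap_mono n).trans (le_normalizer_comap τ)
    have ab : ⁅μ.range.comap τ, μ.range.comap τ⁆ = ⊥ := eq_bot_iff.2 (commutator_le.2 (by
      rintro x ⟨a, ha⟩ y ⟨b, hb⟩
      exact commutatorElement_eq_one_iff_commute.2 (h.abel g c ha.symm hb.symm (x1 _) (x1 _))))
    rw [← comap_sup_eq_of_le_range _ s1 r, commMG (.inl n') (normsR n' (le_sup_left.trans le_normalizer)),
      commutator_comm (S.comap τ), commutator_comm (μ.range.comap τ), commMG (.inl n') (commg_normr ..),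
      commMG (.inl n') (norms_der n'), ab, sup_bot_eq, commutator_comm (μ.range.comap τ), sup_assoc, sup_idem] at ha
    obtain ⟨x, hx, y, hy, rfl⟩ := (mem_sup_normr ((commutator_le_self _).trans (commg_norml ..))).1 ha
    have e2 : τ y = 1 := ti _ (by
      rw [map_mul, mul_eq_one_iff_inv_eq] at e1
      exact e1 ▸ inv_mem (commutator_le_self (S.comap τ) hx)) ((commutator_le.2 fun x hx y hy =>
        mul_mem ((mem_normalizer_iff.1 (n' hx) y).1 hy) (inv_mem hy) : _ ≤ μ.range.comap τ) hy)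
    rw [d1 y ((commutator_le.2 fun x hx y hy => d2 x y _ ((s3 _ hx _).1 (by simp)) ((s3 _ hx _).1 a3.2.2.2) (x1 _)
      hy.choose_spec.symm : ⁅S.comap τ, μ.range.comap τ⁆ ≤ D) hy) e2, mul_one] at e1 ⊢
    exact s4 x hx e1

theorem p_part [Finite E] (nd : (ofQuad Q).Nondeg) (wi : (ofQuad Q).WittIndex m) (hd : finrank F V = 2 * m + 2)
    (hm : 3 ≤ m) (hc : τ.ker ≤ center E) (hr : τ.range = commutator (OG Q)) (p : ℕ) [hp : Fact p.Prime] [CharP F p]
    {a : E} (h1 : τ a = 1) (h2 : a ∈ commutator E) (h3 : a ^ p = 1) : a = 1 := by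
  have hx : NotExc Q := notExc_of_finrank (by omega)
  choose T hT using fun e a => hr.ge (eich_mem_commutator nd hx e a)
  obtain ⟨U, u1, u2⟩ := wi.1
  obtain ⟨e, f, H, -⟩ := nd.exists_isHyp_of_totSing u1 u2
  obtain ⟨S, s1, s2, -, s4⟩ := chain ⟨hc, hr.ge, hT⟩ ⟨nd, by omega, fun U hU => by have := wi.2 U hU; omega⟩ hm H hd m le_rfl
  have h4 := s4 _ (TwM.pow_index_mem (S.comap τ) (hc h1) h2) (by rw [map_pow, h1, one_pow])
  refine by_contra fun n => ?_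
  rw [← orderOf_dvd_iff_pow_eq_one, orderOf_eq_prime h3 n, index_comap] at h4
  have h5 := (commutator (OG Q)).index_mul_card
  rw [card_isom_minus m nd wi hd, ← hr, ← card_mul_relIndex s1, s2, hr, mul_left_comm, mul_assoc, mul_assoc,
    mul_left_comm 2, mul_right_inj' (pow_pos Nat.card_pos _).ne'] at h5
  have d := Classical.char_dvd_card F p
  have h6 : ¬ p ∣ (Nat.card F ^ (m + 1) + 1) * ∏ i ∈ Finset.range m, (Nat.card F ^ (2 * (i + 1)) - 1) := fun c =>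
    hp.out.not_dvd_one ((hp.out.dvd_mul.1 c).elim (Nat.dvd_add_right (dvd_pow d (by simp))).1 fun c => by
      obtain ⟨i, -, c⟩ := (hp.out.prime.dvd_finsetProd_iff _).1 c
      exact (Nat.dvd_sub_iff_right (Nat.one_le_pow _ _ Nat.card_pos) (dvd_pow d (by simp))).1 c)
  rw [hr] at h4
  by_cases h7 : (2 : F) = 0
  · rw [index_commutator_even nd hx h7 (by omega)] at h5
    exact h6 (Nat.eq_of_mul_eq_mul_left two_pos h5 ▸ h4)
  exact h6 ((hp.out.dvd_mul.1 (h5 ▸ h4.mul_left _)).resolve_left fun e =>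
    h7 (by simpa using (CharP.cast_eq_zero_iff F p 2).2 e))

end Cfsg.Agent.Pres
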